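import Mathlib
import Cfsg.Agent.Lib.Helper53.HH.Defs

/-! # Hall–Higman Theorem B farm (helper53): piece R1 -/

set_option autoImplicit false

namespace Cfsg.Agent.Lib.Helper81.HH

open Module Cfsg.Agent.Lib.Helper53.HH

variable {K : Type*} [Field K] {U : Type*} [AddCommGroup U] [Module K U]

/-- every nonzero invariant subspace contains an irreducible one. -/
theorem exists_irr_le [FiniteDimensional K U] (𝒬 : Subgroup (U ≃ₗ[K] U)) :
    ∀ (d : ℕ) (W : Submodule K U), finrank K W = d → W ≠ ⊥ → (∀ g ∈ 𝒬, ∀ u ∈ W, g u ∈ W) →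
      ∃ U0 ≤ W, Irr 𝒬 U0 := by
  intro d
  induction d using Nat.strong_induction_on with
  | _ d ih =>
    intro W hd hne hinv
    by_cases hirr : Irr 𝒬 W
    · exact ⟨W, le_rfl, hirr⟩
    · have : ∃ W' : Submodule K U, W' ≤ W ∧ (∀ g ∈ 𝒬, ∀ u ∈ W', g u ∈ W') ∧ W' ≠ ⊥ ∧ W' ≠ W := by
        by_contra hcon
        push Not at hcon
        apply hirr
        refine ⟨hne, hinv, ?_⟩
        intro W' hW' hW'inv
        by_cases hb : W' = ⊥
        · exact Or.inl hb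
        · exact Or.inr (hcon W' hW' hW'inv hb)
      obtain ⟨W', hW', hW'inv, hW'ne, hW'W⟩ := this
      have hlt : finrank K W' < finrank K W :=
        Submodule.finrank_lt_finrank_of_lt (lt_of_le_of_ne hW' hW'W)
      obtain ⟨U0, hU0, hU0irr⟩ := ih (finrank K W') (hd ▸ hlt) W' rfl hW'ne hW'inv
      exact ⟨U0, hU0.trans hW', hU0irr⟩

theorem exists_irr_nontriv [FiniteDimensional K U] (𝒬 : Subgroup (U ≃ₗ[K] U)) [Finite 𝒬]
    (hc : (Nat.card 𝒬 : K) ≠ 0) (hne : 𝒬 ≠ ⊥) :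
    ∃ U0 : Submodule K U, Irr 𝒬 U0 ∧ ∃ g ∈ 𝒬, ∃ u ∈ U0, g u ≠ u := by
  classical
  have := Fintype.ofFinite 𝒬
  set e : U →ₗ[K] U := ∑ g : 𝒬, (g : U ≃ₗ[K] U).toLinearMap with he
  have heval : ∀ u, e u = ∑ g : 𝒬, (g : U ≃ₗ[K] U) u := by
    intro u
    rw [he, LinearMap.sum_apply]
    rfl
  have hemul : ∀ h ∈ 𝒬, ∀ u, e (h u) = e u := by
    intro h hh u
    rw [heval, heval]
    exact Fintype.sum_equiv (Equiv.mulRight (⟨h, hh⟩ : 𝒬)) _ _ (fun g => rfl)
  have hfix : ∀ u, (∀ g ∈ 𝒬, g u = u) → e u = 0 → u = 0 := by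
    intro u hu h0
    rw [heval] at h0
    have h1 : ∑ g : 𝒬, (g : U ≃ₗ[K] U) u = (Nat.card 𝒬 : K) • u := by
      rw [Finset.sum_congr rfl (fun (g : 𝒬) _ => hu (g : U ≃ₗ[K] U) g.property), Finset.sum_const, Finset.card_univ,
        Nat.card_eq_fintype_card, Nat.cast_smul_eq_nsmul]
    rw [h1] at h0
    exact (smul_eq_zero.1 h0).resolve_left hc
  have hWne : LinearMap.ker e ≠ ⊥ := by
    intro hker
    apply hne
    rw [eq_bot_iff]
    intro g hg
    rw [Subgroup.mem_bot]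
    ext u
    have h1 : e (g u - u) = 0 := by rw [map_sub, hemul g hg, sub_self]
    have h2 : g u - u ∈ LinearMap.ker e := h1
    rw [hker] at h2
    have h3 : g u - u = 0 := by simpa using h2
    simpa using sub_eq_zero.1 h3
  have hWinv : ∀ g ∈ 𝒬, ∀ u ∈ LinearMap.ker e, g u ∈ LinearMap.ker e := by
    intro g hg u hu
    show e (g u) = 0
    rw [hemul g hg]; exact hu
  obtain ⟨U0, hU0, hirr⟩ := exists_irr_le 𝒬 _ (LinearMap.ker e) rfl hWne hWinv
  refine ⟨U0, hirr, ?_⟩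
  obtain ⟨u, hu, hu0⟩ := Submodule.exists_mem_ne_zero_of_ne_bot hirr.1
  by_contra hcon
  push Not at hcon
  exact hu0 (hfix u (fun g hg => hcon g hg u hu) (hU0 hu))

end Cfsg.Agent.Lib.Helper81.HH
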