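import Mathlib
import Cfsg.Agent.Lib.Helper53.HH.Defs

/-! # Hall–Higman Theorem B farm (helper53): piece R2 -/

set_option autoImplicit false

namespace Cfsg.Agent.Lib.Helper81.HH

open Module Cfsg.Agent.Lib.Helper53.HH

variable {K : Type*} [Field K] {U : Type*} [AddCommGroup U] [Module K U]

/-- a linear map which is the first projection on `A + B` for disjoint `A`, `B`. -/
theorem exists_proj_of_disjoint (A B : Submodule K U) (h : Disjoint A B) :
    ∃ F : U →ₗ[K] U, ∀ a ∈ A, ∀ b ∈ B, F (a + b) = a := by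
  have hinj : LinearMap.ker (B.mkQ ∘ₗ A.subtype) = ⊥ := by
    rw [LinearMap.ker_eq_bot']
    intro a ha
    have h1 : (a : U) ∈ B := by
      simpa using ha
    have := (Submodule.disjoint_def.1 h) a a.2 h1
    exact Subtype.ext this
  obtain ⟨r, hr⟩ := LinearMap.exists_leftInverse_of_injective _ hinj
  refine ⟨A.subtype ∘ₗ r ∘ₗ B.mkQ, ?_⟩
  intro a ha b hb
  have h1 : B.mkQ (a + b) = (B.mkQ ∘ₗ A.subtype) ⟨a, ha⟩ := by
    simp only [map_add, LinearMap.comp_apply, Submodule.subtype_apply]
    have : B.mkQ b = 0 := by simpa using hb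
    rw [this, add_zero]
  have h2 := LinearMap.congr_fun hr ⟨a, ha⟩
  simp only [LinearMap.comp_apply] at h2 ⊢
  simp only [LinearMap.comp_apply] at h1
  rw [h1, h2]
  rfl

theorem indep_of_not_qiso [FiniteDimensional K U] (𝒬 : Subgroup (U ≃ₗ[K] U)) {ι : Type*} [Finite ι]
    (W : ι → Submodule K U) (hW : ∀ i, Irr 𝒬 (W i)) (hne : ∀ i i', i ≠ i' → ¬ QIso 𝒬 (W i) (W i')) :
    iSupIndep W := by
  classical
  have hinvS : ∀ T : Finset ι, ∀ g ∈ 𝒬, ∀ u ∈ (⨆ i ∈ T, W i), g u ∈ (⨆ i ∈ T, W i) := by
    intro T g hg u hu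
    have hle : (⨆ i ∈ T, W i) ≤ (⨆ i ∈ T, W i).comap g.toLinearMap := by
      refine iSup₂_le fun i hi v hv => ?_
      rw [Submodule.mem_comap]
      exact (le_iSup₂ (f := fun i (_ : i ∈ T) => W i) i hi) ((hW i).2.1 g hg v hv)
    exact hle hu
  have key : ∀ T : Finset ι, ∀ k ∉ T, Disjoint (W k) (⨆ i ∈ T, W i) := by
    intro T
    induction T using Finset.induction_on with
    | empty => intro k _; simp
    | insert a T haT ih =>
      intro k hk
      have hka : k ≠ a := fun h => hk (h ▸ Finset.mem_insert_self a T)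
      have hkT : k ∉ T := fun h => hk (Finset.mem_insert_of_mem h)
      rw [Finset.iSup_insert]
      set B := ⨆ i ∈ T, W i with hB
      have hdk := ih k hkT
      have hda := ih a haT
      -- the intersection is invariant
      have hmin := (hW k).2.2 (W k ⊓ (W a ⊔ B)) inf_le_left (by
        intro g hg u hu
        refine ⟨(hW k).2.1 g hg u hu.1, ?_⟩
        obtain ⟨x, hx, y, hy, rfl⟩ := Submodule.mem_sup.1 hu.2
        rw [map_add]
        exact Submodule.add_mem_sup ((hW a).2.1 g hg x hx) (hinvS T g hg y hy))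
      rcases hmin with hmin | hmin
      · exact disjoint_iff.2 hmin
      · exfalso
        have hle : W k ≤ W a ⊔ B := inf_eq_left.1 hmin
        obtain ⟨F, hF⟩ := exists_proj_of_disjoint (W a) B hda
        apply hne k a hka
        refine ⟨F, ?_, ?_, ?_⟩
        · intro u hu
          obtain ⟨x, hx, y, hy, rfl⟩ := Submodule.mem_sup.1 (hle hu)
          rw [hF x hx y hy]; exact hx
        · intro g hg u hu
          obtain ⟨x, hx, y, hy, rfl⟩ := Submodule.mem_sup.1 (hle hu)
          rw [hF x hx y hy, map_add, hF _ ((hW a).2.1 g hg x hx) _ (hinvS T g hg y hy)]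
        · by_contra hcon
          push Not at hcon
          apply (hW k).1
          rw [eq_bot_iff]
          intro u hu
          obtain ⟨x, hx, y, hy, rfl⟩ := Submodule.mem_sup.1 (hle hu)
          have h1 := hcon _ hu
          rw [hF x hx y hy] at h1
          subst h1
          rw [zero_add] at hu ⊢
          exact (Submodule.disjoint_def.1 hdk) y hu hy
  have := Fintype.ofFinite ι
  rw [iSupIndep_def]
  intro i
  have h := key (Finset.univ.erase i) i (Finset.notMem_erase i _)
  have e : (⨆ j ∈ Finset.univ.erase i, W j) = ⨆ (j) (_ : j ≠ i), W j := by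
    simp
  rwa [e] at h

end Cfsg.Agent.Lib.Helper81.HH
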