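import Mathlib
import Cfsg.Agent.Lib.Helper53.HH.Defs

/-! # Hall–Higman Theorem B farm (helper53): piece R3 -/

set_option autoImplicit false

namespace Cfsg.Agent.Lib.Helper81.HH

open Module Cfsg.Agent.Lib.Helper53.HH

variable {K : Type*} [Field K] {U : Type*} [AddCommGroup U] [Module K U]

/-- the space of `𝒬`-equivariant maps `U0 → U`. -/
def homSpace (𝒬 : Subgroup (U ≃ₗ[K] U)) (U0 : Submodule K U)
    (hinv : ∀ g ∈ 𝒬, ∀ u ∈ U0, g u ∈ U0) : Submodule K (U0 →ₗ[K] U) where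
  carrier := {φ | ∀ g (hg : g ∈ 𝒬) (u : U0), φ ⟨g u, hinv g hg u u.2⟩ = g (φ u)}
  add_mem' := by
    intro a b ha hb g hg u
    simp only [LinearMap.add_apply, map_add, ha g hg u, hb g hg u]
  zero_mem' := by
    intro g hg u
    simp
  smul_mem' := by
    intro c a ha g hg u
    simp only [LinearMap.smul_apply, map_smul, ha g hg u]

theorem exists_invariant_of_qiso [IsAlgClosed K] [FiniteDimensional K U] (𝒬 : Subgroup (U ≃ₗ[K] U))
    (X : U ≃ₗ[K] U) (hnorm : ∀ g ∈ 𝒬, X * g * X⁻¹ ∈ 𝒬) (hnorm' : ∀ g ∈ 𝒬, X⁻¹ * g * X ∈ 𝒬)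
    (U0 : Submodule K U) (h0 : Irr 𝒬 U0) (hiso : QIso 𝒬 U0 (U0.map X.toLinearMap)) :
    ∃ U1 : Submodule K U, Irr 𝒬 U1 ∧ (∀ u ∈ U1, X u ∈ U1) ∧ QIso 𝒬 U0 U1 := by
  obtain ⟨hne, hinv, hmin⟩ := h0
  obtain ⟨f, hfmap, hfeq, u₀, hu₀, hfu₀⟩ := hiso
  -- θ
  have hθmem : ∀ u : U0, ((X⁻¹ : U ≃ₗ[K] U).toLinearMap ∘ₗ f ∘ₗ U0.subtype) u ∈ U0 := by
    intro u
    obtain ⟨v, hv, hvu⟩ := hfmap u u.2
    have : (X⁻¹ : U ≃ₗ[K] U) (f u) = v := by
      rw [← hvu]
      show (X⁻¹ * X) v = v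
      simp
    show (X⁻¹ : U ≃ₗ[K] U) (f u) ∈ U0
    rw [this]; exact hv
  set θ : U0 →ₗ[K] U0 := LinearMap.codRestrict U0
    ((X⁻¹ : U ≃ₗ[K] U).toLinearMap ∘ₗ f ∘ₗ U0.subtype) hθmem with hθ
  have hθval : ∀ u : U0, ((θ u : U0) : U) = (X⁻¹ : U ≃ₗ[K] U) (f u) := fun u => rfl
  have hθtw : ∀ g (hg : g ∈ 𝒬) (u : U0),
      ((θ ⟨g u, hinv g hg u u.2⟩ : U0) : U) = (X⁻¹ * g * X) (θ u : U0) := by
    intro g hg u
    rw [hθval, hθval]
    show (X⁻¹ : U ≃ₗ[K] U) (f (g u)) = (X⁻¹ * g * X * X⁻¹) (f u)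
    rw [hfeq g hg u u.2]
    simp [mul_assoc]
  -- θ injective
  have hθinj : Function.Injective θ := by
    rw [← LinearMap.ker_eq_bot]
    have hW := hmin ((LinearMap.ker θ).map U0.subtype) (by
      rintro _ ⟨u, _, rfl⟩; exact u.2) (by
      rintro g hg _ ⟨u, hu, rfl⟩
      refine ⟨⟨g u, hinv g hg u u.2⟩, ?_, rfl⟩
      rw [SetLike.mem_coe, LinearMap.mem_ker] at hu ⊢
      apply Subtype.ext
      rw [hθtw g hg u, hu]
      simp)
    rcases hW with hW | hW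
    · exact Submodule.map_injective_of_injective U0.injective_subtype
        (by rw [hW, Submodule.map_bot])
    · exfalso
      have : u₀ ∈ (LinearMap.ker θ).map U0.subtype := by rw [hW]; exact hu₀
      obtain ⟨u, hu, huu⟩ := this
      rw [SetLike.mem_coe, LinearMap.mem_ker] at hu
      have h1 : ((θ u : U0) : U) = 0 := by rw [hu]; rfl
      rw [hθval] at h1
      have h2 : f u = 0 := by
        have := congrArg X h1
        simpa using this
      apply hfu₀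
      rw [← huu]; exact h2
  have hθsurj : Function.Surjective θ := LinearMap.injective_iff_surjective.1 hθinj
  -- the operator Ξ
  set Z := homSpace 𝒬 U0 hinv with hZ
  let Ξ : (U0 →ₗ[K] U) →ₗ[K] (U0 →ₗ[K] U) :=
    { toFun := fun φ => X.toLinearMap ∘ₗ φ ∘ₗ θ
      map_add' := by
        intro a b; ext u; simp
      map_smul' := by
        intro c a; ext u; simp }
  have hΞZ : ∀ φ ∈ Z, Ξ φ ∈ Z := by
    intro φ hφ g hg u
    show X (φ (θ ⟨g u, hinv g hg u u.2⟩)) = g (X (φ (θ u)))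
    have e : θ ⟨g u, hinv g hg u u.2⟩ =
        ⟨(X⁻¹ * g * X) (θ u : U0), hinv _ (hnorm' g hg) _ (θ u).2⟩ :=
      Subtype.ext (hθtw g hg u)
    rw [e, hφ _ (hnorm' g hg) (θ u)]
    show (X * (X⁻¹ * g * X)) (φ (θ u)) = (g * X) (φ (θ u))
    congr 1
    group
  have hsubZ : U0.subtype ∈ Z := by
    intro g hg u; rfl
  have hsubne : (⟨U0.subtype, hsubZ⟩ : Z) ≠ 0 := by
    intro h
    have h1 : U0.subtype = 0 := congrArg Subtype.val h
    apply hne
    rw [eq_bot_iff]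
    intro u hu
    have := LinearMap.congr_fun h1 ⟨u, hu⟩
    simpa using this
  have : Nontrivial Z := ⟨⟨_, 0, hsubne⟩⟩
  obtain ⟨μ, hμ⟩ := Module.End.exists_eigenvalue (Ξ.restrict hΞZ)
  obtain ⟨φZ, hφZ⟩ := hμ.exists_hasEigenvector
  obtain ⟨φ, hφmem⟩ := φZ
  have hφne : φ ≠ 0 := by
    intro h
    apply hφZ.2
    exact Subtype.ext h
  have hφeig : ∀ u : U0, X (φ (θ u)) = μ • φ u := by
    intro u
    have h1 := hφZ.apply_eq_smul
    have h2 : Ξ φ = μ • φ := congrArg Subtype.val h1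
    exact LinearMap.congr_fun h2 u
  obtain ⟨u₁, hu₁⟩ : ∃ u : U0, φ u ≠ 0 := by
    by_contra hcon
    push Not at hcon
    exact hφne (LinearMap.ext hcon)
  refine ⟨LinearMap.range φ, ⟨?_, ?_, ?_⟩, ?_, ?_⟩
  · intro h
    apply hu₁
    have : φ u₁ ∈ LinearMap.range φ := ⟨u₁, rfl⟩
    rw [h] at this
    simpa using this
  · rintro g hg _ ⟨u, rfl⟩
    exact ⟨⟨g u, hinv g hg u u.2⟩, hφmem g hg u⟩
  · intro W' hW' hW'inv
    have hW := hmin ((W'.comap φ).map U0.subtype) (by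
      rintro _ ⟨u, _, rfl⟩; exact u.2) (by
      rintro g hg _ ⟨u, hu, rfl⟩
      refine ⟨⟨g u, hinv g hg u u.2⟩, ?_, rfl⟩
      rw [SetLike.mem_coe, Submodule.mem_comap] at hu ⊢
      rw [hφmem g hg u]
      exact hW'inv g hg _ hu)
    rcases hW with hW | hW
    · left
      have hW : W'.comap φ = ⊥ := Submodule.map_injective_of_injective U0.injective_subtype
        (by rw [hW, Submodule.map_bot])
      rw [eq_bot_iff]
      intro y hy
      obtain ⟨u, rfl⟩ := hW' hy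
      have : u ∈ W'.comap φ := hy
      rw [hW] at this
      have hu0 : u = 0 := by simpa using this
      simp [hu0]
    · right
      apply le_antisymm hW'
      rintro _ ⟨u, rfl⟩
      have : (u : U) ∈ (W'.comap φ).map U0.subtype := by rw [hW]; exact u.2
      obtain ⟨v, hv, hvu⟩ := this
      have : v = u := Subtype.ext hvu
      rw [← this]
      exact hv
  · rintro _ ⟨u, rfl⟩
    obtain ⟨v, rfl⟩ := hθsurj u
    rw [hφeig v]
    exact ⟨μ • v, by simp⟩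
  · obtain ⟨F, hF⟩ := LinearMap.exists_extend φ
    have hFv : ∀ u : U0, F u = φ u := fun u => LinearMap.congr_fun hF u
    refine ⟨F, ?_, ?_, u₁, u₁.2, ?_⟩
    · intro u hu
      exact ⟨⟨u, hu⟩, (hFv ⟨u, hu⟩).symm⟩
    · intro g hg u hu
      have h1 := hFv ⟨g u, hinv g hg u hu⟩
      have h2 := hFv ⟨u, hu⟩
      simp only at h1 h2
      rw [h1, h2]
      exact hφmem g hg ⟨u, hu⟩
    · rw [hFv]; exact hu₁

end Cfsg.Agent.Lib.Helper81.HH
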