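import Mathlib
import Cfsg.Agent.Lib.Helper53.HH.Defs
import Cfsg.Agent.Lib.Helper81.HHR2
import Cfsg.Agent.Lib.Helper81.HHR3

/-! # Hall–Higman Theorem B farm (helper53): piece R4 (cyclic Clifford) -/

set_option autoImplicit false

namespace Cfsg.Agent.Lib.Helper81.HH

open Module Cfsg.Agent.Lib.Helper53.HH

variable {K : Type*} [Field K] {U : Type*} [AddCommGroup U] [Module K U]

/-- image of a subspace under a linear automorphism -/
abbrev mp (Y : U ≃ₗ[K] U) (A : Submodule K U) : Submodule K U := A.map Y.toLinearMap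

theorem mp_mul (Z Y : U ≃ₗ[K] U) (A : Submodule K U) : mp Z (mp Y A) = mp (Z * Y) A :=
  (Submodule.map_comp Y.toLinearMap Z.toLinearMap A).symm

theorem mp_one (A : Submodule K U) : mp (1 : U ≃ₗ[K] U) A = A := Submodule.map_id A

theorem conj_mem_of_normalizer {𝒬 : Subgroup (U ≃ₗ[K] U)} {Y : U ≃ₗ[K] U}
    (hY : Y ∈ Subgroup.normalizer (𝒬 : Set (U ≃ₗ[K] U))) {g : U ≃ₗ[K] U} (hg : g ∈ 𝒬) :
    Y * g * Y⁻¹ ∈ 𝒬 ∧ Y⁻¹ * g * Y ∈ 𝒬 := by
  constructor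
  · exact (Subgroup.mem_normalizer_iff.1 hY g).1 hg
  · have := (Subgroup.mem_normalizer_iff.1 (Subgroup.inv_mem _ hY) g).1 hg
    simpa using this

theorem irr_mp {𝒬 : Subgroup (U ≃ₗ[K] U)} {Y : U ≃ₗ[K] U}
    (hY : Y ∈ Subgroup.normalizer (𝒬 : Set (U ≃ₗ[K] U))) {A : Submodule K U} (hA : Irr 𝒬 A) :
    Irr 𝒬 (mp Y A) := by
  obtain ⟨hne, hinv, hmin⟩ := hA
  refine ⟨?_, ?_, ?_⟩
  · intro h
    apply hne
    exact (Submodule.map_eq_bot_iff (e := Y) (p := A)).1 h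
  · rintro g hg _ ⟨a, ha, rfl⟩
    refine ⟨(Y⁻¹ * g * Y) a, hinv _ (conj_mem_of_normalizer hY hg).2 a ha, ?_⟩
    show (Y * (Y⁻¹ * g * Y)) a = (g * Y) a
    congr 1
    group
  · intro W' hW' hW'inv
    have h := hmin (W'.comap Y.toLinearMap) (by
      intro u hu
      obtain ⟨a, ha, hau⟩ := hW' hu
      have : a = u := Y.injective hau
      exact this ▸ ha) (by
      intro g hg u hu
      rw [Submodule.mem_comap] at hu ⊢
      have h1 := hW'inv _ (conj_mem_of_normalizer hY hg).1 _ hu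
      have h2 : (Y * g * Y⁻¹) (Y.toLinearMap u) = Y.toLinearMap (g u) := by
        show (Y * g * Y⁻¹ * Y) u = (Y * g) u
        congr 1
        group
      rwa [h2] at h1)
    have hsurj : (W'.comap Y.toLinearMap).map Y.toLinearMap = W' :=
      Submodule.map_comap_eq_of_surjective Y.surjective W'
    rcases h with h | h
    · left; rw [← hsurj, h, Submodule.map_bot]
    · right; rw [← hsurj, h]

theorem qiso_refl {𝒬 : Subgroup (U ≃ₗ[K] U)} {A : Submodule K U} (hA : Irr 𝒬 A) : QIso 𝒬 A A := by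
  obtain ⟨u, hu, hu0⟩ := Submodule.exists_mem_ne_zero_of_ne_bot hA.1
  exact ⟨LinearMap.id, fun u hu => hu, fun g _ u _ => rfl, u, hu, hu0⟩

/-- a witness is injective on `A`. -/
theorem witness_inj {𝒬 : Subgroup (U ≃ₗ[K] U)} {A : Submodule K U} (hA : Irr 𝒬 A)
    {f : U →ₗ[K] U} (hfeq : ∀ g ∈ 𝒬, ∀ u ∈ A, f (g u) = g (f u)) (hf0 : ∃ u ∈ A, f u ≠ 0) :
    ∀ u ∈ A, f u = 0 → u = 0 := by
  obtain ⟨hne, hinv, hmin⟩ := hA
  have h := hmin (A ⊓ LinearMap.ker f) inf_le_left (by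
    intro g hg u hu
    refine ⟨hinv g hg u hu.1, ?_⟩
    show f (g u) = 0
    rw [hfeq g hg u hu.1, LinearMap.mem_ker.1 hu.2, map_zero])
  rcases h with h | h
  · intro u hu hfu
    have : u ∈ A ⊓ LinearMap.ker f := ⟨hu, hfu⟩
    rw [h] at this
    simpa using this
  · exfalso
    obtain ⟨u, hu, hfu⟩ := hf0
    have : u ∈ A ⊓ LinearMap.ker f := by rw [h]; exact hu
    exact hfu this.2

/-- a witness is onto `B`. -/
theorem witness_surj {𝒬 : Subgroup (U ≃ₗ[K] U)} {A B : Submodule K U} (hA : Irr 𝒬 A)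
    (hB : Irr 𝒬 B) {f : U →ₗ[K] U} (hfmap : ∀ u ∈ A, f u ∈ B)
    (hfeq : ∀ g ∈ 𝒬, ∀ u ∈ A, f (g u) = g (f u)) (hf0 : ∃ u ∈ A, f u ≠ 0) :
    ∀ b ∈ B, ∃ a ∈ A, f a = b := by
  have h := hB.2.2 (A.map f) (by
    rintro _ ⟨a, ha, rfl⟩; exact hfmap a ha) (by
    rintro g hg _ ⟨a, ha, rfl⟩
    exact ⟨g a, hA.2.1 g hg a ha, hfeq g hg a ha⟩)
  rcases h with h | h
  · exfalso
    obtain ⟨u, hu, hfu⟩ := hf0
    have : f u ∈ A.map f := ⟨u, hu, rfl⟩
    rw [h] at this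
    exact hfu (by simpa using this)
  · intro b hb
    have : b ∈ A.map f := by rw [h]; exact hb
    obtain ⟨a, ha, hab⟩ := this
    exact ⟨a, ha, hab⟩

theorem qiso_symm {𝒬 : Subgroup (U ≃ₗ[K] U)} {A B : Submodule K U} (hA : Irr 𝒬 A)
    (hB : Irr 𝒬 B) (h : QIso 𝒬 A B) : QIso 𝒬 B A := by
  obtain ⟨f, hfmap, hfeq, hf0⟩ := h
  have hinj := witness_inj hA hfeq hf0
  have hsurj := witness_surj hA hB hfmap hfeq hf0
  have hker : LinearMap.ker (f ∘ₗ A.subtype) = ⊥ := by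
    rw [LinearMap.ker_eq_bot']
    intro a ha
    exact Subtype.ext (hinj a a.2 ha)
  obtain ⟨r, hr⟩ := LinearMap.exists_leftInverse_of_injective _ hker
  have hr' : ∀ a (ha : a ∈ A), ((r (f a) : A) : U) = a := by
    intro a ha
    have := LinearMap.congr_fun hr ⟨a, ha⟩
    simp only [LinearMap.comp_apply, Submodule.subtype_apply, LinearMap.id_apply] at this
    rw [this]
  refine ⟨A.subtype ∘ₗ r, ?_, ?_, ?_⟩
  · intro u _
    exact (r u).2
  · intro g hg b hb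
    obtain ⟨a, ha, rfl⟩ := hsurj b hb
    simp only [LinearMap.comp_apply, Submodule.subtype_apply]
    rw [← hfeq g hg a ha, hr' _ (hA.2.1 g hg a ha), hr' a ha]
  · obtain ⟨b, hb, hb0⟩ := Submodule.exists_mem_ne_zero_of_ne_bot hB.1
    obtain ⟨a, ha, rfl⟩ := hsurj b hb
    refine ⟨f a, hb, ?_⟩
    simp only [LinearMap.comp_apply, Submodule.subtype_apply]
    rw [hr' a ha]
    intro h0
    apply hb0
    rw [h0, map_zero]

theorem qiso_trans {𝒬 : Subgroup (U ≃ₗ[K] U)} {A B C : Submodule K U}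
    (hB : Irr 𝒬 B) (h1 : QIso 𝒬 A B) (h2 : QIso 𝒬 B C) : QIso 𝒬 A C := by
  obtain ⟨f, hfmap, hfeq, u, hu, hfu⟩ := h1
  obtain ⟨f', hfmap', hfeq', hf0'⟩ := h2
  have hinj := witness_inj hB hfeq' hf0'
  refine ⟨f' ∘ₗ f, fun u hu => hfmap' _ (hfmap u hu), ?_, u, hu, ?_⟩
  · intro g hg u hu
    simp only [LinearMap.comp_apply]
    rw [hfeq g hg u hu, hfeq' g hg _ (hfmap u hu)]
  · intro h0
    exact hfu (hinj _ (hfmap u hu) h0)

theorem qiso_conj {𝒬 : Subgroup (U ≃ₗ[K] U)} {Y : U ≃ₗ[K] U}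
    (hY : Y ∈ Subgroup.normalizer (𝒬 : Set (U ≃ₗ[K] U))) {A B : Submodule K U} (h : QIso 𝒬 A B) :
    QIso 𝒬 (mp Y A) (mp Y B) := by
  obtain ⟨f, hfmap, hfeq, u, hu, hfu⟩ := h
  have hval : ∀ a, (Y.toLinearMap ∘ₗ f ∘ₗ (Y⁻¹ : U ≃ₗ[K] U).toLinearMap) (Y a) = Y (f a) := by
    intro a
    show Y (f ((Y⁻¹ * Y) a)) = Y (f a)
    simp
  refine ⟨Y.toLinearMap ∘ₗ f ∘ₗ (Y⁻¹ : U ≃ₗ[K] U).toLinearMap, ?_, ?_, Y u, ⟨u, hu, rfl⟩, ?_⟩
  · rintro _ ⟨a, ha, rfl⟩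
    exact ⟨f a, hfmap a ha, (hval a).symm⟩
  · rintro g hg _ ⟨a, ha, rfl⟩
    have e : g (Y.toLinearMap a) = Y ((Y⁻¹ * g * Y) a) := by
      show (g * Y) a = (Y * (Y⁻¹ * g * Y)) a
      congr 1
      group
    have e2 := hval a
    rw [e, hval, hfeq _ (conj_mem_of_normalizer hY hg).2 a ha]
    show (Y * (Y⁻¹ * g * Y)) (f a) = g _
    have e3 : (Y.toLinearMap ∘ₗ f ∘ₗ (Y⁻¹ : U ≃ₗ[K] U).toLinearMap) (Y.toLinearMap a) = Y (f a) := e2
    rw [e3]
    show _ = (g * Y) (f a)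
    congr 1
    group
  · rw [hval]
    intro h0
    apply hfu
    exact Y.injective (by rw [h0, map_zero])

theorem cyc_clifford [IsAlgClosed K] [FiniteDimensional K U] (p : ℕ) [Fact p.Prime]
    (𝒬 : Subgroup (U ≃ₗ[K] U)) (X : U ≃ₗ[K] U) (hnorm : ∀ g ∈ 𝒬, X * g * X⁻¹ ∈ 𝒬) (n : ℕ)
    (hX : X ^ p ^ n = 1) (U0 : Submodule K U) (h0 : Irr 𝒬 U0) :
    ∃ j ≤ n, ∃ U1 : Submodule K U, Irr 𝒬 U1 ∧ (∀ u ∈ U1, (X ^ p ^ j) u ∈ U1) ∧
      iSupIndep (fun i : Fin (p ^ j) => U1.map ((X ^ (i : ℕ) : U ≃ₗ[K] U).toLinearMap)) ∧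
      (∀ g ∈ 𝒬, (∀ u ∈ U1, g u = u) → ∀ u ∈ U0, g u = u) := by
  classical
  have hp : p.Prime := Fact.out
  have hpow : ∀ t : ℕ, ∀ g ∈ 𝒬, X ^ t * g * (X ^ t)⁻¹ ∈ 𝒬 := by
    intro t
    induction t with
    | zero => intro g hg; simpa using hg
    | succ t ih =>
      intro g hg
      have h1 := hnorm _ (ih g hg)
      have e : X ^ (t + 1) * g * (X ^ (t + 1))⁻¹ = X * (X ^ t * g * (X ^ t)⁻¹) * X⁻¹ := by
        rw [pow_succ']; group
      rw [e]; exact h1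
  have hXN : X ∈ Subgroup.normalizer (𝒬 : Set (U ≃ₗ[K] U)) := by
    rw [Subgroup.mem_normalizer_iff]
    intro g
    constructor
    · exact hnorm g
    · intro h
      have h1 := hpow (p ^ n - 1) _ h
      have hpos : 0 < p ^ n := pow_pos hp.pos n
      have e1 : X ^ (p ^ n - 1) * X = 1 := by rw [← pow_succ, Nat.sub_add_cancel hpos, hX]
      have e : X ^ (p ^ n - 1) * (X * g * X⁻¹) * (X ^ (p ^ n - 1))⁻¹ = g := by
        calc X ^ (p ^ n - 1) * (X * g * X⁻¹) * (X ^ (p ^ n - 1))⁻¹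
            = (X ^ (p ^ n - 1) * X) * g * (X ^ (p ^ n - 1) * X)⁻¹ := by group
          _ = g := by rw [e1]; simp
      rwa [e] at h1
  have hXt : ∀ t : ℕ, X ^ t ∈ Subgroup.normalizer (𝒬 : Set (U ≃ₗ[K] U)) :=
    fun t => Subgroup.pow_mem _ hXN t
  set T : ℕ → Prop := fun t => QIso 𝒬 U0 (mp (X ^ t) U0) with hT
  have hT0 : T 0 := by
    show QIso 𝒬 U0 (mp (X ^ 0) U0)
    rw [pow_zero, mp_one]; exact qiso_refl h0
  have hTadd : ∀ t t', T t → T t' → T (t + t') := by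
    intro t t' h h'
    have h2 := qiso_conj (hXt t) h'
    rw [mp_mul, ← pow_add] at h2
    exact qiso_trans (irr_mp (hXt t) h0) h h2
  have hTmul : ∀ t, T t → ∀ k : ℕ, T (k * t) := by
    intro t ht k
    induction k with
    | zero => simpa using hT0
    | succ k ih => rw [Nat.succ_mul]; exact hTadd _ _ ih ht
  have hTper : ∀ s c : ℕ, T (s + c * p ^ n) → T s := by
    intro s c h
    have e : X ^ (s + c * p ^ n) = X ^ s := by
      rw [pow_add, mul_comm c, pow_mul, hX, one_pow, mul_one]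
    show QIso 𝒬 U0 (mp (X ^ s) U0)
    rw [← e]; exact h
  have hTn : T (p ^ n) := by
    show QIso 𝒬 U0 (mp (X ^ p ^ n) U0)
    rw [hX, mp_one]; exact qiso_refl h0
  have hex : ∃ j, T (p ^ j) := ⟨n, hTn⟩
  set j := Nat.find hex with hjdef
  have hj : T (p ^ j) := Nat.find_spec hex
  have hjmin : ∀ a < j, ¬ T (p ^ a) := fun a ha => Nat.find_min hex ha
  have hjn : j ≤ n := Nat.find_min' hex hTn
  obtain ⟨U1, hU1, hU1inv, h01⟩ := exists_invariant_of_qiso 𝒬 (X ^ p ^ j)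
    (fun g hg => (conj_mem_of_normalizer (hXt _) hg).1)
    (fun g hg => (conj_mem_of_normalizer (hXt _) hg).2) U0 h0 hj
  have hT1 : ∀ t, QIso 𝒬 U1 (mp (X ^ t) U1) → T t := by
    intro t h
    have h2 := qiso_conj (hXt t) (qiso_symm h0 hU1 h01)
    exact qiso_trans hU1 h01 (qiso_trans (irr_mp (hXt t) hU1) h h2)
  have hsmall : ∀ t, 0 < t → t < p ^ j → ¬ T t := by
    intro t ht0 htj hTt
    obtain ⟨a, m, hm, hta⟩ := Nat.exists_eq_pow_mul_and_not_dvd ht0.ne' p hp.ne_one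
    have hm0 : 0 < m := by
      rcases Nat.eq_zero_or_pos m with h | h
      · exact absurd (h ▸ dvd_zero p) hm
      · exact h
    have haj : a < j := by
      have h1 : p ^ a ≤ t := by rw [hta]; exact Nat.le_mul_of_pos_right _ hm0
      exact (Nat.pow_lt_pow_iff_right hp.one_lt).1 (lt_of_le_of_lt h1 htj)
    have hn1 : 1 < p ^ n := Nat.one_lt_pow (by omega) hp.one_lt
    have hcop : Nat.Coprime m (p ^ n) :=
      (Nat.Coprime.pow_left n ((Nat.Prime.coprime_iff_not_dvd hp).2 hm)).symm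
    obtain ⟨k, -, hk⟩ := Nat.exists_mul_mod_eq_one_of_coprime hcop hn1
    have hdm := Nat.div_add_mod (m * k) (p ^ n)
    rw [hk] at hdm
    have e : k * t = p ^ a + (p ^ a * (m * k / p ^ n)) * p ^ n := by
      calc k * t = p ^ a * (m * k) := by rw [hta]; ring
        _ = p ^ a * (p ^ n * (m * k / p ^ n) + 1) := by rw [hdm]
        _ = _ := by ring
    have h1 := hTmul t hTt k
    rw [e] at h1
    exact hjmin a haj (hTper _ _ h1)
  have haux : ∀ a b : ℕ, a < b → b < p ^ j → ¬ QIso 𝒬 (mp (X ^ a) U1) (mp (X ^ b) U1) := by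
    intro a b hab hb h
    have h2 := qiso_conj (Subgroup.inv_mem _ (hXt a)) h
    rw [mp_mul, mp_mul, inv_mul_cancel, mp_one] at h2
    have e : (X ^ a)⁻¹ * X ^ b = X ^ (b - a) := by
      have : X ^ b = X ^ a * X ^ (b - a) := by rw [← pow_add]; congr 1; omega
      rw [this]; group
    rw [e] at h2
    exact hsmall (b - a) (by omega) (by omega) (hT1 _ h2)
  refine ⟨j, hjn, U1, hU1, hU1inv, ?_, ?_⟩
  · apply indep_of_not_qiso 𝒬 (fun i : Fin (p ^ j) => mp (X ^ (i : ℕ)) U1)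
      (fun i => irr_mp (hXt i) hU1)
    intro i i' hne hq
    have hne' : (i : ℕ) ≠ i' := fun h => hne (Fin.ext h)
    rcases Nat.lt_or_gt_of_ne hne' with h | h
    · exact haux i i' h i'.2 hq
    · exact haux i' i h i.2 (qiso_symm (irr_mp (hXt i) hU1) (irr_mp (hXt i') hU1) hq)
  · obtain ⟨f, hfmap, hfeq, hf0⟩ := h01
    have hinj := witness_inj h0 hfeq hf0
    intro g hg hfix u hu
    have h1 : f (g u - u) = 0 := by
      rw [map_sub, hfeq g hg u hu, hfix _ (hfmap u hu), sub_self]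
    exact sub_eq_zero.1 (hinj _ (U0.sub_mem (h0.2.1 g hg u hu) hu) h1)

end Cfsg.Agent.Lib.Helper81.HH
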