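import Mathlib
import Cfsg.Agent.Lib.Helper53.HH.Defs

/-! # Hall–Higman Theorem B farm (helper53): piece R5 -/

set_option autoImplicit false

namespace Cfsg.Agent.Lib.Helper81.HH

open Module Cfsg.Agent.Lib.Helper53.HH Polynomial

variable {K : Type*} [Field K] {U : Type*} [AddCommGroup U] [Module K U]

theorem toLinearMap_pow (X : U ≃ₗ[K] U) (n : ℕ) :
    ((X ^ n : U ≃ₗ[K] U)).toLinearMap = (X.toLinearMap : Module.End K U) ^ n := by
  induction n with
  | zero => rfl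
  | succ n ih =>
    rw [pow_succ, pow_succ, ← ih]
    rfl

theorem poly_identity (p : ℕ) [Fact p.Prime] [CharP K p] (j k : ℕ) :
    ((X : K[X]) - 1) ^ (p ^ j * k + (p ^ j - 1)) =
      (∑ i ∈ Finset.range (p ^ j), (X : K[X]) ^ i) * ((X : K[X]) ^ p ^ j - 1) ^ k := by
  have h1 : ((X : K[X]) - 1) ^ p ^ j = (X : K[X]) ^ p ^ j - 1 := by
    rw [sub_pow_char_pow, one_pow]
  have hpos : 0 < p ^ j := pow_pos (Fact.out : p.Prime).pos j
  have h2 : ((X : K[X]) - 1) ^ (p ^ j - 1) = ∑ i ∈ Finset.range (p ^ j), (X : K[X]) ^ i := by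
    have hne : ((X : K[X]) - 1) ≠ 0 := by
      have := Polynomial.X_sub_C_ne_zero (1 : K)
      simpa using this
    apply mul_right_cancel₀ hne
    rw [← pow_succ, Nat.sub_add_cancel hpos, h1, geom_sum_mul]
  rw [pow_add, pow_mul, h1, h2, mul_comm]

theorem pow_ne_zero_of_indep (p : ℕ) [Fact p.Prime] [CharP K p] (X : U ≃ₗ[K] U) (j : ℕ)
    (U1 : Submodule K U) (hinv : ∀ u ∈ U1, (X ^ p ^ j) u ∈ U1)
    (hind : iSupIndep (fun i : Fin (p ^ j) => U1.map ((X ^ (i : ℕ) : U ≃ₗ[K] U).toLinearMap)))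
    (k : ℕ) (u : U) (hu : u ∈ U1)
    (hk : ((((X ^ p ^ j : U ≃ₗ[K] U)).toLinearMap - 1 : Module.End K U) ^ k) u ≠ 0) :
    ((X.toLinearMap - 1 : Module.End K U) ^ (p ^ j * k + (p ^ j - 1))) u ≠ 0 := by
  set x : Module.End K U := X.toLinearMap with hx
  have hpos : 0 < p ^ j := pow_pos (Fact.out : p.Prime).pos j
  have hid := congrArg (Polynomial.aeval x) (poly_identity (K := K) p j k)
  simp only [map_pow, map_sub, aeval_X, map_one, map_mul, map_sum] at hid
  rw [hid]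
  rw [toLinearMap_pow] at hk
  set w : U := ((x ^ p ^ j - 1) ^ k) u with hw
  have hwU : w ∈ U1 := by
    have : ∀ k : ℕ, ∀ v ∈ U1, ((x ^ p ^ j - 1) ^ k) v ∈ U1 := by
      intro k
      induction k with
      | zero => intro v hv; simpa using hv
      | succ k ih =>
        intro v hv
        rw [pow_succ, Module.End.mul_apply]
        apply ih
        have h1 := hinv v hv
        have h2 : (x ^ p ^ j) v = (X ^ p ^ j) v := by
          rw [hx, ← toLinearMap_pow]; rfl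
        simp only [LinearMap.sub_apply, Module.End.one_apply, h2]
        exact U1.sub_mem h1 hv
    exact this k u hu
  rw [Module.End.mul_apply, ← hw, LinearMap.sum_apply]
  intro hsum
  rw [Finset.sum_range] at hsum
  have h0 := hind ⟨0, hpos⟩
  have hmem0 : w ∈ U1.map ((X ^ ((⟨0, hpos⟩ : Fin (p ^ j)) : ℕ) : U ≃ₗ[K] U).toLinearMap) := by
    refine ⟨w, hwU, ?_⟩
    simp
  have hmem1 : w ∈ ⨆ (i : Fin (p ^ j)) (_ : i ≠ ⟨0, hpos⟩),
      U1.map ((X ^ (i : ℕ) : U ≃ₗ[K] U).toLinearMap) := by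
    have hsplit := Finset.add_sum_erase Finset.univ (fun i : Fin (p ^ j) => (x ^ (i : ℕ)) w)
      (Finset.mem_univ (⟨0, hpos⟩ : Fin (p ^ j)))
    rw [hsum] at hsplit
    have hw' : w = - ∑ i ∈ Finset.univ.erase (⟨0, hpos⟩ : Fin (p ^ j)), (x ^ (i : ℕ)) w := by
      have : (x ^ ((⟨0, hpos⟩ : Fin (p ^ j)) : ℕ)) w = w := by simp
      rw [this] at hsplit
      exact eq_neg_of_add_eq_zero_left hsplit
    rw [hw']
    apply Submodule.neg_mem
    apply Submodule.sum_mem
    intro i hi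
    have hi' : i ≠ ⟨0, hpos⟩ := Finset.ne_of_mem_erase hi
    apply Submodule.mem_iSup_of_mem i
    apply Submodule.mem_iSup_of_mem hi'
    refine ⟨w, hwU, ?_⟩
    rw [toLinearMap_pow]
  have := (Submodule.disjoint_def.1 h0) w hmem0 hmem1
  exact hk this

end Cfsg.Agent.Lib.Helper81.HH
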