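import Mathlib
import Cfsg.Agent.Lib.Helper53.HH.Defs

/-! # Hall–Higman Theorem B farm (helper53): piece R6 -/

set_option autoImplicit false

namespace Cfsg.Agent.Lib.Helper81.HH

theorem mem_normalizer_of_conj_mem {Γ : Type*} [Group Γ] (H : Subgroup Γ) [Finite H] (X : Γ)
    (h : ∀ g ∈ H, X * g * X⁻¹ ∈ H) : X ∈ Subgroup.normalizer (H : Set Γ) := by
  rw [Subgroup.mem_normalizer_iff]
  intro g
  refine ⟨h g, fun hg => ?_⟩
  let φ : H → H := fun a => ⟨X * a * X⁻¹, h a a.2⟩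
  have hinj : Function.Injective φ := by
    intro a b hab
    have : X * a * X⁻¹ = X * b * X⁻¹ := congrArg Subtype.val hab
    exact Subtype.ext (by simpa using this)
  obtain ⟨a, ha⟩ := (Finite.injective_iff_surjective.1 hinj) ⟨_, hg⟩
  have : X * a * X⁻¹ = X * g * X⁻¹ := congrArg Subtype.val ha
  have : (a : Γ) = g := by simpa using this
  exact this ▸ a.2

theorem min_cfg {Γ : Type*} [Group Γ] (p q : ℕ) [Fact p.Prime] [Fact q.Prime] (hpq : p ≠ q)
    (Q : Subgroup Γ) [Finite Q] (hQ : IsPGroup q Q) (X Y : Γ) (hnorm : ∀ g ∈ Q, X * g * X⁻¹ ∈ Q)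
    (hXY : Y ∈ Subgroup.zpowers X) (e : ℕ) (hY : Y ^ p ^ e = 1) (hnc : ∃ g ∈ Q, Y * g ≠ g * Y)
    (hmin : ∀ Q1 : Subgroup Γ, Q1 < Q → (∀ g ∈ Q1, X * g * X⁻¹ ∈ Q1) → ∀ g ∈ Q1, Y * g = g * Y) :
    (Subgroup.closure {c | ∃ g ∈ Q, c = g * Y * g⁻¹ * Y⁻¹} = Q) ∧
    (∀ d ∈ Q, Y * d = d * Y → ∀ g ∈ Q, d * g = g * d) := by
  have hp : p.Prime := Fact.out
  have hq : q.Prime := Fact.out
  have hXN : X ∈ Subgroup.normalizer (Q : Set Γ) := mem_normalizer_of_conj_mem Q X hnorm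
  have hYN : Y ∈ Subgroup.normalizer (Q : Set Γ) :=
    (Subgroup.zpowers_le.2 hXN) hXY
  have hcomm : X * Y = Y * X := by
    obtain ⟨k, rfl⟩ := Subgroup.mem_zpowers_iff.1 hXY
    exact ((Commute.refl X).zpow_right k).eq
  have hYconj : ∀ g ∈ Q, Y * g * Y⁻¹ ∈ Q := fun g hg => (Subgroup.mem_normalizer_iff.1 hYN g).1 hg
  set S : Set Γ := {c | ∃ g ∈ Q, c = g * Y * g⁻¹ * Y⁻¹} with hS
  have hSQ : Subgroup.closure S ≤ Q := by
    rw [Subgroup.closure_le]
    rintro _ ⟨g, hg, rfl⟩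
    have : g * Y * g⁻¹ * Y⁻¹ = g * (Y * g⁻¹ * Y⁻¹) := by group
    rw [this]
    exact Q.mul_mem hg (hYconj _ (Q.inv_mem hg))
  have hSX : ∀ c ∈ Subgroup.closure S, X * c * X⁻¹ ∈ Subgroup.closure S := by
    intro c hc
    induction hc using Subgroup.closure_induction with
    | mem c hc =>
      obtain ⟨g, hg, rfl⟩ := hc
      apply Subgroup.subset_closure
      refine ⟨X * g * X⁻¹, hnorm g hg, ?_⟩
      have h1 : X⁻¹ * Y = Y * X⁻¹ := by
        have := congrArg (fun z => X⁻¹ * z * X⁻¹) hcomm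
        simp only [mul_assoc, inv_mul_cancel_left, mul_inv_cancel, mul_one] at this
        exact this.symm
      have h2 : X * Y⁻¹ = Y⁻¹ * X := by
        have := congrArg (fun z => Y⁻¹ * z * Y⁻¹) hcomm
        simp only [mul_assoc, inv_mul_cancel_left, mul_inv_cancel, mul_one] at this
        exact this.symm
      calc X * (g * Y * g⁻¹ * Y⁻¹) * X⁻¹
          = X * g * Y * g⁻¹ * (Y⁻¹ * X⁻¹) := by group
        _ = X * g * Y * g⁻¹ * (X⁻¹ * Y⁻¹) := by
            rw [← mul_inv_rev, hcomm, mul_inv_rev]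
        _ = X * g * (Y * X⁻¹) * (X * g⁻¹ * X⁻¹) * Y⁻¹ := by group
        _ = X * g * (X⁻¹ * Y) * (X * g⁻¹ * X⁻¹) * Y⁻¹ := by rw [h1]
        _ = X * g * X⁻¹ * Y * (X * g * X⁻¹)⁻¹ * Y⁻¹ := by group
    | one => simp
    | mul a b _ _ ha hb =>
      have : X * (a * b) * X⁻¹ = (X * a * X⁻¹) * (X * b * X⁻¹) := by group
      rw [this]; exact Subgroup.mul_mem _ ha hb
    | inv a _ ha =>
      have : X * a⁻¹ * X⁻¹ = (X * a * X⁻¹)⁻¹ := by group
      rw [this]; exact Subgroup.inv_mem _ ha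
  have h1 : Subgroup.closure S = Q := by
    by_contra hne
    have hlt : Subgroup.closure S < Q := lt_of_le_of_ne hSQ hne
    have hc := hmin _ hlt hSX
    obtain ⟨g, hg, hgY⟩ := hnc
    apply hgY
    set c := g * Y * g⁻¹ * Y⁻¹ with hcdef
    have hcS : c ∈ Subgroup.closure S := Subgroup.subset_closure ⟨g, hg, rfl⟩
    have hcY : Commute c Y := (hc c hcS).symm
    have e1 : g * Y * g⁻¹ = c * Y := by rw [hcdef]; group
    have e2 : (g * Y * g⁻¹) ^ p ^ e = 1 := by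
      rw [conj_pow, hY]; group
    rw [e1, hcY.mul_pow, hY, mul_one] at e2
    obtain ⟨k, hk⟩ := hQ ⟨c, hSQ hcS⟩
    have hk' : c ^ q ^ k = 1 := by
      have := congrArg Subtype.val hk
      simpa using this
    have hcop : Nat.Coprime (p ^ e) (q ^ k) :=
      Nat.Coprime.pow _ _ ((Nat.coprime_primes hp hq).2 hpq)
    have hc1 : c = 1 := by
      have d1 := orderOf_dvd_of_pow_eq_one e2
      have d2 := orderOf_dvd_of_pow_eq_one hk'
      have := Nat.dvd_gcd d1 d2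
      rw [hcop.gcd_eq_one, Nat.dvd_one] at this
      exact orderOf_eq_one_iff.1 this
    have : g * Y * g⁻¹ = Y := by rw [e1, hc1, one_mul]
    calc Y * g = (g * Y * g⁻¹) * g := by rw [this]
      _ = g * Y := by group
  refine ⟨h1, ?_⟩
  -- part 2
  set D : Subgroup Γ := Q ⊓ Subgroup.centralizer {Y} with hD
  have hDmem : ∀ d, d ∈ D ↔ d ∈ Q ∧ Y * d = d * Y := by
    intro d
    rw [hD, Subgroup.mem_inf, Subgroup.mem_centralizer_iff]
    simp
  have hDQ : D ≤ Q := inf_le_left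
  have : Finite D := Finite.of_injective (Subgroup.inclusion hDQ) (Subgroup.inclusion_injective hDQ)
  have hDlt : D < Q := by
    refine lt_of_le_of_ne hDQ ?_
    intro h
    obtain ⟨g, hg, hgY⟩ := hnc
    exact hgY ((hDmem g).1 (h ▸ hg)).2
  have hDX : ∀ d ∈ D, X * d * X⁻¹ ∈ D := by
    intro d hd
    obtain ⟨hdQ, hdY⟩ := (hDmem d).1 hd
    refine (hDmem _).2 ⟨hnorm d hdQ, ?_⟩
    have hXi : Y * X⁻¹ = X⁻¹ * Y := by
      have := congrArg (fun z => X⁻¹ * z * X⁻¹) hcomm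
      simp only [mul_assoc, inv_mul_cancel_left, mul_inv_cancel, mul_one] at this
      exact this
    calc Y * (X * d * X⁻¹) = (Y * X) * d * X⁻¹ := by group
      _ = X * (Y * d) * X⁻¹ := by rw [← hcomm]; group
      _ = X * d * (Y * X⁻¹) := by rw [hdY]; group
      _ = X * d * X⁻¹ * Y := by rw [hXi]; group
  have hXND : X ∈ Subgroup.normalizer (D : Set Γ) := mem_normalizer_of_conj_mem D X hDX
  set N : Subgroup Γ := Q ⊓ Subgroup.normalizer (D : Set Γ) with hN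
  have hNX : ∀ g ∈ N, X * g * X⁻¹ ∈ N := by
    intro g hg
    exact ⟨hnorm g hg.1, Subgroup.mul_mem _ (Subgroup.mul_mem _ hXND hg.2) (Subgroup.inv_mem _ hXND)⟩
  have hnil : Group.IsNilpotent Q := hQ.isNilpotent
  have hNC := Group.normalizerCondition_of_isNilpotent (G := Q)
  have hsub : D.subgroupOf Q < ⊤ := by
    rw [lt_top_iff_ne_top]
    intro h
    rw [Subgroup.subgroupOf_eq_top] at h
    exact absurd (le_antisymm hDQ h) hDlt.ne
  obtain ⟨x, hxN, hxD⟩ := SetLike.exists_of_lt (hNC _ hsub)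
  have hxN' : (x : Γ) ∈ N := by
    refine ⟨x.2, ?_⟩
    show (x : Γ) ∈ Subgroup.normalizer (D : Set Γ)
    rw [Subgroup.mem_normalizer_iff]
    intro d
    rw [Subgroup.mem_normalizer_iff] at hxN
    constructor
    · intro hd
      have := (hxN ⟨d, hDQ hd⟩).1 (Subgroup.mem_subgroupOf.2 hd)
      exact Subgroup.mem_subgroupOf.1 this
    · intro hd
      have hdQ : d ∈ Q := by
        have h2 : (x : Γ)⁻¹ * ((x : Γ) * d * (x : Γ)⁻¹) * (x : Γ) ∈ Q :=
          Q.mul_mem (Q.mul_mem (Q.inv_mem x.2) (hDQ hd)) x.2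
        have e : (x : Γ)⁻¹ * ((x : Γ) * d * (x : Γ)⁻¹) * (x : Γ) = d := by group
        rwa [e] at h2
      have := (hxN ⟨d, hdQ⟩).2 (Subgroup.mem_subgroupOf.2 hd)
      exact Subgroup.mem_subgroupOf.1 this
  have hNQ : N = Q := by
    by_contra hne
    have hlt : N < Q := lt_of_le_of_ne inf_le_left hne
    have := hmin N hlt hNX x hxN'
    exact hxD (Subgroup.mem_subgroupOf.2 ((hDmem _).2 ⟨x.2, this⟩))
  intro d hdQ hdY g hg
  have hdD : d ∈ D := (hDmem d).2 ⟨hdQ, hdY⟩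
  -- d centralizes all generators
  have hcent : Subgroup.closure S ≤ Subgroup.centralizer {d} := by
    rw [Subgroup.closure_le]
    rintro _ ⟨a, ha, rfl⟩
    rw [SetLike.mem_coe, Subgroup.mem_centralizer_iff]
    intro d' hd'
    rw [Set.mem_singleton_iff] at hd'
    subst hd'
    have haN : a⁻¹ ∈ Subgroup.normalizer (D : Set Γ) := by
      have : a⁻¹ ∈ N := by rw [hNQ]; exact Q.inv_mem ha
      exact this.2
    have h2 := (Subgroup.mem_normalizer_iff.1 haN d').1 hdD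
    rw [inv_inv] at h2
    have h3 := ((hDmem _).1 h2).2
    -- Y * (a⁻¹ d a) = (a⁻¹ d a) * Y
    have h4 : d' * (a * Y * a⁻¹) = (a * Y * a⁻¹) * d' := by
      calc d' * (a * Y * a⁻¹) = a * ((a⁻¹ * d' * a) * Y) * a⁻¹ := by group
        _ = a * (Y * (a⁻¹ * d' * a)) * a⁻¹ := by rw [h3]
        _ = _ := by group
    have h5 : d' * Y⁻¹ = Y⁻¹ * d' := by
      have := congrArg (fun z => Y⁻¹ * z * Y⁻¹) hdY
      simp only [mul_assoc, inv_mul_cancel_left, mul_inv_cancel, mul_one] at this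
      exact this
    calc d' * (a * Y * a⁻¹ * Y⁻¹) = (d' * (a * Y * a⁻¹)) * Y⁻¹ := by group
      _ = (a * Y * a⁻¹) * (d' * Y⁻¹) := by rw [h4]; group
      _ = a * Y * a⁻¹ * Y⁻¹ * d' := by rw [h5]; group
  have hg' : g ∈ Subgroup.centralizer {d} := hcent (h1 ▸ hg)
  exact (Subgroup.mem_centralizer_iff.1 hg') d rfl

end Cfsg.Agent.Lib.Helper81.HH
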