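import Mathlib
import Cfsg.Agent.Lib.Helper53.HH.Defs

/-! # Hall–Higman Theorem B farm (helper53): piece R9 (base change) -/

set_option autoImplicit false

namespace Cfsg.Agent.Lib.Helper81.HH

open Module

theorem exists_baseChange {F : Type*} [Field F] {V : Type*} [AddCommGroup V] [Module F V]
    [FiniteDimensional F V] (K : Type*) [Field K] [Algebra F K] :
    ∃ Φ : (V ≃ₗ[F] V) →* (TensorProduct F K V ≃ₗ[K] TensorProduct F K V), Function.Injective Φ ∧
      ∀ (g : V ≃ₗ[F] V) (r : ℕ),
        ((Φ g).toLinearMap - 1 : Module.End K (TensorProduct F K V)) ^ r = 0 ↔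
          (g.toLinearMap - 1 : Module.End F V) ^ r = 0 := by
  have hinj : Function.Injective (Module.End.baseChangeHom F K V) :=
    LinearMap.baseChangeHom_injective F V K
  let Φ : (V ≃ₗ[F] V) →* (TensorProduct F K V ≃ₗ[K] TensorProduct F K V) :=
    (LinearMap.GeneralLinearGroup.generalLinearEquiv K (TensorProduct F K V)).toMonoidHom.comp
      ((Units.map (Module.End.baseChangeHom F K V).toMonoidHom).comp
        (LinearMap.GeneralLinearGroup.generalLinearEquiv F V).symm.toMonoidHom)
  have hΦ : ∀ g : V ≃ₗ[F] V, (Φ g).toLinearMap = Module.End.baseChangeHom F K V g.toLinearMap := by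
    intro g
    rfl
  refine ⟨Φ, ?_, ?_⟩
  · intro g h hgh
    have h1 : (Φ g).toLinearMap = (Φ h).toLinearMap := by rw [hgh]
    rw [hΦ, hΦ] at h1
    exact LinearEquiv.toLinearMap_injective (hinj h1)
  · intro g r
    rw [hΦ]
    have e : (Module.End.baseChangeHom F K V g.toLinearMap - 1 : Module.End K (TensorProduct F K V)) ^ r
        = Module.End.baseChangeHom F K V ((g.toLinearMap - 1 : Module.End F V) ^ r) := by
      rw [map_pow, map_sub, map_one]
    rw [e]
    constructor
    · intro h
      apply hinj
      rw [h, map_zero]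
    · intro h
      rw [h, map_zero]

end Cfsg.Agent.Lib.Helper81.HH
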