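import Cfsg.Agent.Lib.Helper85.AltModel
set_option autoImplicit false
namespace Cfsg.Agent.Lib.Helper81.AltBase
open Equiv Equiv.Perm Cfsg.Agent.Lib.Helper85.AltM
variable {p : ℕ} [Fact p.Prime] {κ ε : Type} [Fintype κ] [DecidableEq κ] [Fintype ε] [DecidableEq ε]

theorem J_tr_inl_ne (f : Idx p κ → ZMod p) (i : Idx p κ) (x : ZMod p) :
    J ε (tr f) (Sum.inl (i, x)) ≠ Sum.inl (i, x) ↔ f i ≠ 0 := by
  simp

theorem support_J_tr (f : Idx p κ → ZMod p) :
    (J ε (tr f)).support =
      ((Finset.univ.filter (fun i => f i ≠ 0)) ×ˢ (Finset.univ : Finset (ZMod p))).map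
        (Function.Embedding.inl : X p κ ↪ M p κ ε) := by
  ext z
  rcases z with ⟨i, x⟩ | e
  · simp
  · simp

theorem card_support_J_tr' (f : Idx p κ → ZMod p) :
    (J ε (tr f)).support.card = p * (Finset.univ.filter (fun i => f i ≠ 0)).card := by
  rw [support_J_tr, Finset.card_map, Finset.card_product, Finset.card_univ, ZMod.card, mul_comm]

/-- the points moved by a finite set of elements of a `p`-group of permutations: their number is divisible
by `p`. -/
theorem dvd_card_moved {α : Type*} [Fintype α] [DecidableEq α] (P : Subgroup (Perm α)) (hP : IsPGroup p P)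
    (S : Set (Perm α)) (hS : ∀ s ∈ S, s ∈ P) [DecidablePred (fun z : α => ∃ s ∈ S, s z ≠ z)] :
    p ∣ (Finset.univ.filter (fun z : α => ∃ s ∈ S, s z ≠ z)).card := by
  classical
  have hH : IsPGroup p (Subgroup.closure S) :=
    hP.to_le ((Subgroup.closure_le _).mpr hS)
  have h := hH.card_modEq_card_fixedPoints α
  have hfix : (MulAction.fixedPoints (Subgroup.closure S) α) = {z : α | ¬ ∃ s ∈ S, s z ≠ z} := by
    ext z
    simp only [MulAction.mem_fixedPoints, Set.mem_setOf_eq, not_exists, not_and, not_not]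
    constructor
    · intro hz s hs
      exact hz ⟨s, Subgroup.subset_closure hs⟩
    · rintro hz ⟨s, hs⟩
      have : Subgroup.closure S ≤ MulAction.stabilizer (Perm α) z := by
        rw [Subgroup.closure_le]
        intro t ht
        exact hz t ht
      exact this hs
  rw [hfix] at h
  have h1 : Nat.card {z : α | ¬ ∃ s ∈ S, s z ≠ z} =
      (Finset.univ.filter (fun z : α => ¬ ∃ s ∈ S, s z ≠ z)).card := by
    rw [Nat.card_eq_fintype_card, Fintype.card_subtype]
    rfl
  rw [h1, Nat.card_eq_fintype_card] at h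
  have h2 := Finset.card_filter_add_card_filter_not (s := (Finset.univ : Finset α))
    (fun z : α => ∃ s ∈ S, s z ≠ z)
  rw [Finset.card_univ] at h2
  rw [← h2] at h
  have h3 : (Finset.univ.filter (fun z : α => ∃ s ∈ S, s z ≠ z)).card +
      (Finset.univ.filter (fun z : α => ¬ ∃ s ∈ S, s z ≠ z)).card ≡
      0 + (Finset.univ.filter (fun z : α => ¬ ∃ s ∈ S, s z ≠ z)).card [MOD p] := by
    rw [zero_add]; exact h
  exact (Nat.modEq_zero_iff_dvd).mp (Nat.ModEq.add_right_cancel' _ h3)

theorem conj_mem_Ahat_of_single (g : Perm (M p κ ε))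
    (h : ∀ j : Idx p κ, g * J ε (tr (Pi.single j 1)) * g⁻¹ ∈ Ahat p κ ε) :
    ∀ x ∈ Ahat p κ ε, g * x * g⁻¹ ∈ Ahat p κ ε := by
  let L : AddSubgroup (Idx p κ → ZMod p) :=
    { carrier := {f | g * J ε (tr f) * g⁻¹ ∈ Ahat p κ ε}
      add_mem' := by
        intro a b ha hb
        have := (Ahat p κ ε).mul_mem ha hb
        show g * J ε (tr (a + b)) * g⁻¹ ∈ Ahat p κ ε
        rw [tr_add, map_mul]
        convert this using 1
        group
      zero_mem' := by
        show g * J ε (tr 0) * g⁻¹ ∈ Ahat p κ ε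
        rw [tr_zero, map_one]
        simp [Subgroup.one_mem]
      neg_mem' := by
        intro a ha
        have := (Ahat p κ ε).inv_mem ha
        show g * J ε (tr (-a)) * g⁻¹ ∈ Ahat p κ ε
        rw [tr_neg, map_inv]
        convert this using 1
        group }
  rintro _ ⟨f, rfl⟩
  show f ∈ L
  rw [← Finset.univ_sum_single f]
  apply AddSubgroup.sum_mem
  intro j _
  have : (Pi.single j (f j) : Idx p κ → ZMod p) = (f j).val • Pi.single j 1 := by
    rw [← Pi.single_smul]
    simp
  rw [this]
  exact AddSubgroup.nsmul_mem _ (h j) _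

end Cfsg.Agent.Lib.Helper81.AltBase
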