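import Cfsg.Agent.Lib.Helper85.AltModel
set_option autoImplicit false
namespace Cfsg.Agent.Lib.Helper81.AltP1
open Equiv Equiv.Perm Cfsg.Agent.Lib.Helper85.AltM
variable {p : ℕ} [Fact p.Prime] {κ ε : Type} [Fintype κ] [DecidableEq κ] [Fintype ε] [DecidableEq ε]

theorem exists_ne_ne (h3 : 3 ≤ Fintype.card (Idx p κ)) (i k : Idx p κ) : ∃ j, j ≠ i ∧ j ≠ k := by
  by_contra hcon
  push_neg at hcon
  have : (Finset.univ : Finset (Idx p κ)) ⊆ {i, k} := by
    intro j _
    by_cases hj : j = i
    · simp [hj]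
    · simp [hcon j hj]
  have h := Finset.card_le_card this
  have h2 : ({i, k} : Finset (Idx p κ)).card ≤ 2 := Finset.card_le_two
  rw [Finset.card_univ] at h
  omega

theorem sum_single_sub (i j : Idx p κ) (x : ZMod p) :
    ∑ k, (Pi.single i x - Pi.single j x : Idx p κ → ZMod p) k = 0 := by
  simp [Finset.sum_sub_distrib]

theorem cent_A (h3 : 3 ≤ Fintype.card (Idx p κ)) [Subsingleton ε] (c : Perm (M p κ ε))
    (hc : ∀ f : Idx p κ → ZMod p, ∑ i, f i = 0 → c * J ε (tr f) = J ε (tr f) * c) : c ∈ Ahat p κ ε := by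
  have hcomm : ∀ (f : Idx p κ → ZMod p), ∑ i, f i = 0 → ∀ y, c (J ε (tr f) y) = J ε (tr f) (c y) := by
    intro f hf y
    have := congrArg (fun π : Perm (M p κ ε) => π y) (hc f hf)
    simpa using this
  -- blocks are preserved
  have hblock : ∀ (i : Idx p κ) (x : ZMod p), ∃ x', c (Sum.inl (i, x)) = Sum.inl (i, x') := by
    intro i x
    have key : ∀ (f : Idx p κ → ZMod p), ∑ k, f k = 0 → f i ≠ 0 →
        J ε (tr f) (c (Sum.inl (i, x))) ≠ c (Sum.inl (i, x)) := by
      intro f hf hfi h
      rw [← hcomm f hf] at h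
      have h' := c.injective h
      simp at h'
      exact hfi h'
    rcases hz : c (Sum.inl (i, x)) with ⟨k, x'⟩ | e
    · by_cases hk : k = i
      · exact ⟨x', by rw [hk]⟩
      · exfalso
        obtain ⟨j, hji, hjk⟩ := exists_ne_ne h3 i k
        apply key (Pi.single i 1 - Pi.single j 1) (sum_single_sub i j 1)
        · simp [Pi.single_apply, hji.symm]
        · rw [hz]
          simp [Pi.single_apply, hk, hjk.symm]
    · exfalso
      obtain ⟨j, hji, -⟩ := exists_ne_ne h3 i i
      apply key (Pi.single i 1 - Pi.single j 1) (sum_single_sub i j 1)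
      · simp [Pi.single_apply, hji.symm]
      · rw [hz]
        simp
  obtain ⟨π, rfl⟩ := exists_eq_J c (fun y => by
    obtain ⟨x', hx'⟩ := hblock y.1 y.2
    exact ⟨_, hx'⟩)
  choose d hd using fun i => hblock i 0
  refine ⟨d, ?_⟩
  congr 1
  have hd' : ∀ i, π (i, 0) = (i, d i) := by
    intro i
    have := hd i
    simpa using this
  have hmain : ∀ i x, π (i, x) = (i, x + d i) := by
    intro i x
    obtain ⟨j, hji, -⟩ := exists_ne_ne h3 i i
    have := hcomm (Pi.single i x - Pi.single j x) (sum_single_sub i j x) (Sum.inl (i, 0))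
    simp only [J_apply_inl, tr_apply, hd'] at this
    have h2 := Sum.inl_injective this
    simp [Pi.single_apply, hji.symm] at h2
    rw [h2, add_comm]
  ext ⟨i, x⟩ <;> simp [hmain]

end Cfsg.Agent.Lib.Helper81.AltP1
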