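import Cfsg.Agent.Lib.Helper85.AltModel
set_option autoImplicit false
namespace Cfsg.Agent.Lib.Helper81.AltP2
open Equiv Equiv.Perm Cfsg.Agent.Lib.Helper85.AltM
variable {p : ℕ} [Fact p.Prime] {κ ε : Type} [Fintype κ] [DecidableEq κ] [Fintype ε] [DecidableEq ε]

theorem cent_V [Subsingleton ε] (c : Perm (M p κ ε)) (hc : ∀ x ∈ VV p κ ε, c * x = x * c) : c ∈ VV p κ ε := by
  have hcomm : ∀ (s t : ZMod p) (h : κ → ZMod p) (y), c (J ε (vt s t h) y) = J ε (vt s t h) (c y) := by
    intro s t h y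
    have := congrArg (fun π : Perm (M p κ ε) => π y) (hc (J ε (vt s t h)) ⟨s, t, h, rfl⟩)
    simpa using this
  have key : ∀ (s t : ZMod p) (h : κ → ZMod p) (y), J ε (vt s t h) y ≠ y →
      J ε (vt s t h) (c y) ≠ c y := by
    intro s t h y hy h'
    rw [← hcomm] at h'
    exact hy (c.injective h')
  have hplane : ∀ (a x : ZMod p), ∃ a' x', c (Sum.inl (Sum.inl a, x)) = Sum.inl (Sum.inl a', x') := by
    intro a x
    have hk := key 0 1 0 (Sum.inl (Sum.inl a, x)) (by simp)
    rcases hz : c (Sum.inl (Sum.inl a, x)) with ⟨(a' | k), x'⟩ | e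
    · exact ⟨a', x', rfl⟩
    · exfalso
      apply hk
      rw [hz]
      simp
    · exfalso
      apply hk
      rw [hz]
      simp
  have hblock : ∀ (k : κ) (x : ZMod p), ∃ x', c (Sum.inl (Sum.inr k, x)) = Sum.inl (Sum.inr k, x') := by
    intro k x
    have hk := key 0 0 (Pi.single k 1) (Sum.inl (Sum.inr k, x)) (by simp)
    rcases hz : c (Sum.inl (Sum.inr k, x)) with ⟨(a' | k'), x'⟩ | e
    · exfalso
      apply hk
      rw [hz]
      simp
    · by_cases hkk : k' = k
      · exact ⟨x', by rw [hkk]⟩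
      · exfalso
        apply hk
        rw [hz]
        simp [hkk]
    · exfalso
      apply hk
      rw [hz]
      simp
  obtain ⟨π, rfl⟩ := exists_eq_J c (fun y => by
    rcases y with ⟨(a | k), x⟩
    · obtain ⟨a', x', h⟩ := hplane a x
      exact ⟨_, h⟩
    · obtain ⟨x', h⟩ := hblock k x
      exact ⟨_, h⟩)
  obtain ⟨s, d, hsd⟩ := hplane 0 0
  choose h hh using fun k => hblock k 0
  refine ⟨s, d, h, ?_⟩
  congr 1
  have hsd' : π (Sum.inl 0, 0) = (Sum.inl s, d) := by simpa using hsd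
  have hh' : ∀ k, π (Sum.inr k, 0) = (Sum.inr k, h k) := by
    intro k
    simpa using hh k
  have h1 : ∀ a x, π (Sum.inl a, x) = (Sum.inl (a + s), x + d) := by
    intro a x
    have := hcomm a x 0 (Sum.inl (Sum.inl 0, 0))
    simp only [J_apply_inl, vt_apply_inl, hsd', zero_add] at this
    have h2 := Sum.inl_injective this
    rw [h2, add_comm s a, add_comm d x]
  have h2 : ∀ k x, π (Sum.inr k, x) = (Sum.inr k, x + h k) := by
    intro k x
    have := hcomm 0 0 (Pi.single k x) (Sum.inl (Sum.inr k, 0))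
    simp only [J_apply_inl, vt_apply_inr, hh', zero_add, Pi.single_eq_same] at this
    have h2 := Sum.inl_injective this
    rw [h2, add_comm]
  ext ⟨(a | k), x⟩ <;> simp [h1, h2]

end Cfsg.Agent.Lib.Helper81.AltP2
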