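import Cfsg.Agent.Lib.Helper81.AltBase
set_option autoImplicit false
namespace Cfsg.Agent.Lib.Helper81.AltP3
open Equiv Equiv.Perm Cfsg.Agent.Lib.Helper85.AltM Cfsg.Agent.Lib.Helper81.AltBase
variable {p : ℕ} [Fact p.Prime] {κ ε : Type} [Fintype κ] [DecidableEq κ] [Fintype ε] [DecidableEq ε]

theorem normal_form [Subsingleton ε] (g : Perm (M p κ ε))
    (hg : ∀ f : Idx p κ → ZMod p, ∃ f' : Idx p κ → ZMod p, g * J ε (tr f) * g⁻¹ = J ε (tr f')) :
    ∃ (d : Idx p κ → ZMod p) (l : Idx p κ → (ZMod p)ˣ) (σ : Perm (Idx p κ)), g = J ε (tr d * ml l * bl σ) := by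
  have hp : 0 < p := (Fact.out : p.Prime).pos
  -- the image of `c_i`
  choose F hF using fun i : Idx p κ => hg (Pi.single i 1)
  have hone : ∀ i, ∃ s, ∀ k, F i k ≠ 0 ↔ k = s := by
    intro i
    have h1 := card_support_J_tr' (ε := ε) (F i)
    rw [← hF i, card_support_conj, card_support_J_tr'] at h1
    have h2 : (Finset.univ.filter (fun k => (Pi.single i 1 : Idx p κ → ZMod p) k ≠ 0)) = {i} := by
      ext k
      by_cases hk : k = i
      · subst hk; simp
      · simp [hk]
    rw [h2, Finset.card_singleton] at h1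
    have h3 : (Finset.univ.filter (fun k => F i k ≠ 0)).card = 1 :=
      (Nat.eq_of_mul_eq_mul_left hp h1).symm
    obtain ⟨s, hs⟩ := Finset.card_eq_one.mp h3
    refine ⟨s, fun k => ?_⟩
    have := Finset.ext_iff.mp hs k
    simpa using this
  choose s hs using hone
  have hblock : ∀ i x, ∃ y, g (Sum.inl (i, x)) = Sum.inl (s i, y) := by
    intro i x
    have hmoved : J ε (tr (F i)) (g (Sum.inl (i, x))) ≠ g (Sum.inl (i, x)) := by
      rw [← hF i]
      simp
    rcases hz : g (Sum.inl (i, x)) with ⟨k, y⟩ | e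
    · rw [hz, J_tr_inl_ne, hs] at hmoved
      exact ⟨y, by rw [hmoved]⟩
    · rw [hz] at hmoved
      simp at hmoved
  obtain ⟨π, rfl⟩ := exists_eq_J g (fun y => by
    obtain ⟨y', h⟩ := hblock y.1 y.2
    exact ⟨_, h⟩)
  have hF' : ∀ i, π * tr (Pi.single i 1) * π⁻¹ = tr (F i) := by
    intro i
    apply J_injective (ε := ε)
    rw [← hF i]
    simp
  choose δ hδ using fun i => hblock i 0
  have hδ' : ∀ i, π (i, 0) = (s i, δ i) := by
    intro i
    simpa using hδ i
  have hmain : ∀ i x, π (i, x) = (s i, F i (s i) * x + δ i) := by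
    intro i x
    have h1 : π * tr (x.val • Pi.single i 1) * π⁻¹ = tr (x.val • F i) := by
      rw [tr_nsmul, tr_nsmul, ← hF' i, conj_pow]
    have h2 : π * tr (x.val • Pi.single i 1) = tr (x.val • F i) * π := by
      rw [← h1]; group
    have h3 := congrArg (fun ρ : Perm (X p κ) => ρ (i, 0)) h2
    simp only [Perm.mul_apply, tr_apply, hδ', Pi.smul_apply, Pi.single_eq_same, zero_add] at h3
    simp only [nsmul_eq_mul, ZMod.natCast_val, ZMod.cast_id', id_eq, mul_one] at h3
    rw [h3, add_comm, mul_comm]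
  have hne : ∀ i, F i (s i) ≠ 0 := fun i => (hs i (s i)).mpr rfl
  have hinj : Function.Injective s := by
    intro i j hij
    have h1 := hmain i ((F i (s i))⁻¹ * (δ j - δ i))
    have h2 := hmain j 0
    have h3 : π (i, (F i (s i))⁻¹ * (δ j - δ i)) = π (j, 0) := by
      rw [h1, h2, hij]
      congr 1
      rw [← hij, mul_inv_cancel_left₀ (hne i)]
      ring
    exact congrArg Prod.fst (π.injective h3)
  let σ : Perm (Idx p κ) := Equiv.ofBijective s (Finite.injective_iff_bijective.mp hinj)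
  have hσ : ∀ i, σ i = s i := fun i => rfl
  refine ⟨fun k => δ (σ⁻¹ k), fun k => Units.mk0 (F (σ⁻¹ k) k) ?_, σ, ?_⟩
  · have := hne (σ⁻¹ k)
    simpa [← hσ] using this
  · congr 1
    ext ⟨i, x⟩
    · simp [hmain, hσ]
    · simp [hmain, ← hσ]

end Cfsg.Agent.Lib.Helper81.AltP3
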