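import Cfsg.Agent.Lib.Helper81.AltBase
set_option autoImplicit false
namespace Cfsg.Agent.Lib.Helper81.AltP5a
open Equiv Equiv.Perm Cfsg.Agent.Lib.Helper85.AltM Cfsg.Agent.Lib.Helper81.AltBase
variable {p : ℕ} [Fact p.Prime] {κ ε : Type} [Fintype κ] [DecidableEq κ] [Fintype ε] [DecidableEq ε]

theorem dvd_card_support {α : Type*} [Fintype α] [DecidableEq α] (P : Subgroup (Perm α)) (hP : IsPGroup p P)
    (h : Perm α) (hh : h ∈ P) : p ∣ h.support.card := by
  classical
  have := dvd_card_moved P hP {h} (by rintro s rfl; exact hh)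
  convert this using 2
  ext z
  simp

theorem dvd_card_support_union {α : Type*} [Fintype α] [DecidableEq α] (P : Subgroup (Perm α))
    (hP : IsPGroup p P) (a b : Perm α) (ha : a ∈ P) (hb : b ∈ P) : p ∣ (a.support ∪ b.support).card := by
  classical
  have := dvd_card_moved P hP {a, b} (by rintro s (rfl | rfl); exacts [ha, hb])
  convert this using 2
  ext z
  simp

theorem card_support_single (i : Idx p κ) (c : ZMod p) (hc : c ≠ 0) :
    (J ε (tr (Pi.single i c))).support.card = p := by
  rw [card_support_J_tr']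
  have h2 : (Finset.univ.filter (fun k => (Pi.single i c : Idx p κ → ZMod p) k ≠ 0)) = {i} := by
    ext k
    by_cases hk : k = i
    · subst hk; simp [hc]
    · simp [hk]
  rw [h2, Finset.card_singleton, mul_one]

theorem mem_support_single (i : Idx p κ) (c : ZMod p) (hc : c ≠ 0) (z : M p κ ε) :
    z ∈ (J ε (tr (Pi.single i c))).support ↔ ∃ x, z = Sum.inl (i, x) := by
  rcases z with ⟨k, x⟩ | e
  · by_cases hk : k = i
    · subst hk; simp [hc]
    · simp [hk]
  · simp

theorem weak_closed_hat [Subsingleton ε] (g : Perm (M p κ ε)) (P : Subgroup (Perm (M p κ ε))) (hP : IsPGroup p P)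
    (hA : Ahat p κ ε ≤ P) (hg : ∀ x ∈ Ahat p κ ε, g * x * g⁻¹ ∈ P) :
    ∀ x ∈ Ahat p κ ε, g * x * g⁻¹ ∈ Ahat p κ ε := by
  have hp : p.Prime := Fact.out
  have h01 : (1 : ZMod p) ≠ 0 := one_ne_zero
  apply conj_mem_Ahat_of_single
  intro j
  set c' : Perm (M p κ ε) := g * J ε (tr (Pi.single j 1)) * g⁻¹ with hc'
  have hc'P : c' ∈ P := hg _ ⟨_, rfl⟩
  have hcard' : c'.support.card = p := by
    rw [hc', card_support_conj, card_support_single j 1 h01]
  have hmem' : ∀ x, g (Sum.inl (j, x)) ∈ c'.support := by
    intro x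
    rw [hc', mem_support]
    simp
  -- a point of the support in `X`
  obtain ⟨i, x0, hy⟩ : ∃ i x0, (Sum.inl (i, x0) : M p κ ε) ∈ c'.support := by
    rcases h0 : g (Sum.inl (j, 0)) with ⟨i, x0⟩ | e
    · exact ⟨i, x0, h0 ▸ hmem' 0⟩
    · rcases h1 : g (Sum.inl (j, 1)) with ⟨i, x0⟩ | e'
      · exact ⟨i, x0, h1 ▸ hmem' 1⟩
      · exfalso
        have : g (Sum.inl (j, 0)) = g (Sum.inl (j, 1)) := by
          rw [h0, h1, Subsingleton.elim e e']
        have := g.injective this
        simp at this
  set ci : Perm (M p κ ε) := J ε (tr (Pi.single i 1)) with hci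
  have hciP : ci ∈ P := hA ⟨_, rfl⟩
  have hcardi : ci.support.card = p := card_support_single i 1 h01
  have hyi : (Sum.inl (i, x0) : M p κ ε) ∈ ci.support := (mem_support_single i 1 h01 _).mpr ⟨x0, rfl⟩
  have hdvd := dvd_card_support_union P hP ci c' hciP hc'P
  have hUI := Finset.card_union_add_card_inter ci.support c'.support
  have hI : 0 < (ci.support ∩ c'.support).card :=
    Finset.card_pos.mpr ⟨_, Finset.mem_inter.mpr ⟨hyi, hy⟩⟩
  have hU1 : p ≤ (ci.support ∪ c'.support).card := by
    have := Finset.card_le_card (Finset.subset_union_left (s₁ := ci.support) (s₂ := c'.support))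
    omega
  have hU : (ci.support ∪ c'.support).card = p := by
    obtain ⟨m, hm⟩ := hdvd
    rw [hm] at hU1 hUI ⊢
    rw [hcardi, hcard'] at hUI
    have hm2 : m < 2 := by
      by_contra hcon
      have : p * 2 ≤ p * m := Nat.mul_le_mul_left _ (by omega)
      omega
    have hm1 : 0 < m := by
      rcases Nat.eq_zero_or_pos m with h | h
      · subst h; have := hp.pos; omega
      · exact h
    have : m = 1 := by omega
    rw [this, mul_one]
  have hsupp1 : ci.support = ci.support ∪ c'.support :=
    Finset.eq_of_subset_of_card_le Finset.subset_union_left (by rw [hU, hcardi])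
  have hsupp2 : c'.support = ci.support ∪ c'.support :=
    Finset.eq_of_subset_of_card_le Finset.subset_union_right (by rw [hU, hcard'])
  have hsupp : c'.support = ci.support := hsupp2.trans hsupp1.symm
  -- the image of `y`
  have hy1 : c' (Sum.inl (i, x0)) ∈ ci.support := by
    rw [← hsupp]
    exact (apply_mem_support).mpr hy
  obtain ⟨x1, hx1⟩ := (mem_support_single i 1 h01 _).mp hy1
  set t : Perm (M p κ ε) := J ε (tr (Pi.single i (x0 - x1))) with ht
  have htP : t ∈ P := hA ⟨_, rfl⟩
  have hh : p ∣ (t * c').support.card := dvd_card_support P hP _ (P.mul_mem htP hc'P)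
  have hsub : (t * c').support ⊆ ci.support.erase (Sum.inl (i, x0)) := by
    intro z hz
    rw [Finset.mem_erase]
    constructor
    · rintro rfl
      rw [mem_support] at hz
      apply hz
      rw [Perm.mul_apply, hx1, ht]
      simp
    · by_contra hcon
      rw [mem_support] at hz
      apply hz
      have h1 : c' z = z := by
        rw [← hsupp] at hcon
        exact notMem_support.mp hcon
      rw [Perm.mul_apply, h1]
      rcases z with ⟨k, x⟩ | e
      · have hk : k ≠ i := by
          rintro rfl
          exact hcon ((mem_support_single k 1 h01 _).mpr ⟨x, rfl⟩)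
        rw [ht]
        simp [hk]
      · rw [ht]; simp
  have hlt : (t * c').support.card < p := by
    have := Finset.card_le_card hsub
    rw [Finset.card_erase_of_mem hyi, hcardi] at this
    have := hp.pos
    omega
  have h0 : (t * c').support.card = 0 := Nat.eq_zero_of_dvd_of_lt hh hlt
  have h1 : t * c' = 1 := by
    rw [← support_eq_empty_iff]
    exact Finset.card_eq_zero.mp h0
  have : c' = t⁻¹ := by
    rw [eq_inv_iff_mul_eq_one]
    rw [← h1]
    have := mul_eq_one_iff_eq_inv.mp h1
    rw [this]; simp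
  rw [this]
  exact (Ahat p κ ε).inv_mem ⟨_, rfl⟩

end Cfsg.Agent.Lib.Helper81.AltP5a
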