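import Cfsg.Agent.Lib.Helper81.AltBase
import Cfsg.Agent.Lib.Helper81.AltP1
set_option autoImplicit false
namespace Cfsg.Agent.Lib.Helper81.AltP5b
open Equiv Equiv.Perm Cfsg.Agent.Lib.Helper85.AltM Cfsg.Agent.Lib.Helper81.AltBase

theorem z2a : ∀ v : ZMod 2, v + 1 + 1 = v := by decide
theorem z2b : ∀ u v : ZMod 2, v = u ∨ v = u + 1 := by decide
theorem z2c : ∀ v : ZMod 2, v + 1 ≠ v := by decide

variable {p : ℕ} [Fact p.Prime] {κ ε : Type} [Fintype κ] [DecidableEq κ] [Fintype ε] [DecidableEq ε]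

theorem single_eq_swap [Fact (Nat.Prime 2)] (i : Idx 2 κ) (x : ZMod 2) :
    J ε (tr (Pi.single i 1)) = swap (Sum.inl (i, x)) (Sum.inl (i, x + 1)) := by
  have h2 : ∀ v : ZMod 2, v + 1 + 1 = v := z2a
  have h01 : ∀ u v : ZMod 2, v = u ∨ v = u + 1 := z2b
  ext z
  rcases z with ⟨k, v⟩ | e
  · by_cases hk : k = i
    · subst hk
      rcases h01 x v with rfl | rfl
      · simp
      · simp [h2]
    · rw [swap_apply_of_ne_of_ne]
      · simp [hk]
      · simp [hk]
      · simp [hk]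
  · simp [swap_apply_of_ne_of_ne]

theorem sign_single [Fact (Nat.Prime 2)] (i : Idx 2 κ) :
    sign (J ε (tr (Pi.single i 1))) = -1 := by
  rw [single_eq_swap i 0, sign_swap]
  simp

theorem pair_mem_AA [Fact (Nat.Prime 2)] (i k : Idx 2 κ) :
    J ε (tr (Pi.single i 1)) * J ε (tr (Pi.single k 1)) ∈ AA 2 κ ε := by
  refine ⟨⟨Pi.single i 1 + Pi.single k 1, by rw [tr_add, map_mul]⟩, ?_⟩
  show sign _ = 1
  rw [map_mul, sign_single, sign_single]
  simp

theorem fix_of_three {α : Type*} (w : Perm α) (x : α) (n : ℕ) (h3 : w (w (w x)) = x) (hn : w ^ 2 ^ n = 1) :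
    w x = x := by
  have h1 : Function.IsPeriodicPt w 3 x := h3
  have h2 : Function.IsPeriodicPt w (2 ^ n) x := by
    show w^[2 ^ n] x = x
    rw [iterate_eq_pow, hn]
    rfl
  have h := h1.gcd h2
  have hg : Nat.gcd 3 (2 ^ n) = 1 := Nat.Coprime.pow_right n (by norm_num)
  rw [hg] at h
  exact h

theorem weak_closed_two (hp : p = 2) (h3 : 3 ≤ Fintype.card (Idx p κ)) [Subsingleton ε] (g : Perm (M p κ ε))
    (P : Subgroup (Perm (M p κ ε))) (hP : IsPGroup p P)
    (hA : AA p κ ε ≤ P) (hg : ∀ x ∈ AA p κ ε, g * x * g⁻¹ ∈ P) :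
    ∀ x ∈ AA p κ ε, g * x * g⁻¹ ∈ AA p κ ε := by
  subst hp
  have h2 : ∀ v : ZMod 2, v + 1 + 1 = v := z2a
  have h01 : ∀ u v : ZMod 2, v = u ∨ v = u + 1 := z2b
  have hne1 : ∀ v : ZMod 2, v + 1 ≠ v := z2c
  suffices hs : ∀ j : Idx 2 κ, g * J ε (tr (Pi.single j 1)) * g⁻¹ ∈ Ahat 2 κ ε by
    intro x hx
    refine ⟨conj_mem_Ahat_of_single g hs x hx.1, ?_⟩
    show sign _ = 1
    have : sign x = 1 := hx.2
    simp [this]
  intro j
  -- a point of `g B_j` inside `X`
  obtain ⟨u, i, x0, hx⟩ : ∃ (u : ZMod 2) (i : Idx 2 κ) (x0 : ZMod 2),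
      g (Sum.inl (j, u)) = Sum.inl (i, x0) := by
    rcases h0 : g (Sum.inl (j, 0)) with ⟨i, x0⟩ | e
    · exact ⟨0, i, x0, h0⟩
    · rcases h1 : g (Sum.inl (j, 1)) with ⟨i, x0⟩ | e'
      · exact ⟨1, i, x0, h1⟩
      · exfalso
        have : g (Sum.inl (j, 0)) = g (Sum.inl (j, 1)) := by
          rw [h0, h1, Subsingleton.elim e e']
        have := g.injective this
        simp at this
  set x : M 2 κ ε := Sum.inl (i, x0) with hxdef
  set y : M 2 κ ε := Sum.inl (i, x0 + 1) with hydef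
  set x' : M 2 κ ε := g (Sum.inl (j, u + 1)) with hx'def
  have hxx' : x' ≠ x := by
    rw [hx'def, ← hx]
    intro h
    have := g.injective h
    simp at this
  have hxy : y ≠ x := by
    rw [hydef, hxdef]
    simp
  by_cases hclaim : x' = y
  · refine ⟨Pi.single i 1, ?_⟩
    rw [single_eq_swap j u, ← swap_apply_apply, hx, single_eq_swap i x0]
    rw [← hx'def, hclaim]
  exfalso
  -- `x'` is not in the block `i`
  have hx'i : ∀ v, x' ≠ Sum.inl (i, v) := by
    intro v hv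
    rcases h01 x0 v with rfl | rfl
    · exact hxx' hv
    · exact hclaim hv
  obtain ⟨k, hki, hk⟩ : ∃ k, k ≠ i ∧ ∀ v, x' ≠ Sum.inl (k, v) := by
    rcases hz : x' with ⟨k0, v0⟩ | e
    · obtain ⟨k, hk1, hk2⟩ := AltP1.exists_ne_ne h3 i k0
      refine ⟨k, hk1, fun v hv => ?_⟩
      simp at hv
      exact hk2 hv.1.symm
    · obtain ⟨k, hk1, -⟩ := AltP1.exists_ne_ne h3 i i
      exact ⟨k, hk1, fun v hv => by simp at hv⟩
  set a : Perm (M 2 κ ε) := J ε (tr (Pi.single i 1)) * J ε (tr (Pi.single k 1)) with ha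
  have haP : a ∈ P := hA (pair_mem_AA i k)
  have hax : a x = y := by
    rw [ha, hxdef, hydef]
    simp [hki.symm]
  have hay : a y = x := by
    rw [ha, hxdef, hydef]
    simp [hki.symm, h2]
  have hax' : a x' = x' := by
    rcases hz : x' with ⟨k0, v0⟩ | e
    · have h1 : k0 ≠ i := by
        rintro rfl
        exact hx'i v0 hz
      have h2 : k0 ≠ k := by
        rintro rfl
        exact hk v0 hz
      rw [ha]
      simp [h1, h2]
    · rw [ha]; simp
  -- the second element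
  have hyj : ∀ v, g⁻¹ y ≠ Sum.inl (j, v) := by
    intro v hv
    have hv' : y = g (Sum.inl (j, v)) := by
      rw [← hv]; simp
    rcases h01 u v with rfl | rfl
    · exact hxy (hv'.trans hx)
    · exact hclaim hv'.symm
  obtain ⟨j', hj'j, hj'⟩ : ∃ j', j' ≠ j ∧ ∀ v, g⁻¹ y ≠ Sum.inl (j', v) := by
    rcases hz : g⁻¹ y with ⟨k0, v0⟩ | e
    · obtain ⟨k, hk1, hk2⟩ := AltP1.exists_ne_ne h3 j k0
      refine ⟨k, hk1, fun v hv => ?_⟩
      simp at hv
      exact hk2 hv.1.symm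
    · obtain ⟨k, hk1, -⟩ := AltP1.exists_ne_ne h3 j j
      exact ⟨k, hk1, fun v hv => by simp at hv⟩
  set b : Perm (M 2 κ ε) := J ε (tr (Pi.single j 1)) * J ε (tr (Pi.single j' 1)) with hb
  set a' : Perm (M 2 κ ε) := g * b * g⁻¹ with ha'
  have ha'P : a' ∈ P := hg _ (pair_mem_AA j j')
  have ha'x : a' x = x' := by
    rw [ha', ← hx, hx'def, hb]
    simp [hj'j.symm]
  have ha'x' : a' x' = x := by
    rw [ha', ← hx, hx'def, hb]
    simp [hj'j.symm, h2]
  have ha'y : a' y = y := by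
    have hbz : b (g⁻¹ y) = g⁻¹ y := by
      rcases hz : g⁻¹ y with ⟨k0, v0⟩ | e
      · have h1 : k0 ≠ j := by
          rintro rfl
          exact hyj v0 hz
        have h2 : k0 ≠ j' := by
          rintro rfl
          exact hj' v0 hz
        rw [hb]
        simp [h1, h2]
      · rw [hb]; simp
    rw [ha', Perm.mul_apply, Perm.mul_apply, hbz]
    simp
  obtain ⟨n, hn⟩ := hP ⟨a * a', P.mul_mem haP ha'P⟩
  have hn' : (a * a') ^ 2 ^ n = 1 := by
    have := congrArg Subtype.val hn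
    simpa using this
  have := fix_of_three (a * a') x n (by
    simp only [Perm.mul_apply, ha'x, hax', ha'x', hax, ha'y, hay]) hn'
  rw [Perm.mul_apply, ha'x, hax'] at this
  exact hxx' this

end Cfsg.Agent.Lib.Helper81.AltP5b
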