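import Cfsg.Agent.Lib.Helper1.MinimalNormal
import Cfsg.Agent.Lib.Lead.PStable
import Cfsg.Agent.Lib.Lead.Cores

/-!
# Solvable primitive groups: the group theory behind Berger's theorem
-/

set_option autoImplicit false

namespace Cfsg.Agent.Lib.Helper81

open Cfsg Cfsg.Agent.Lib

theorem normal_of_sup_eq_top {Q : Type*} [Group Q] {X Y S : Subgroup Q} (h : X ⊔ Y = ⊤)
    (hX : ∀ x ∈ X, ∀ s ∈ S, x * s * x⁻¹ ∈ S) (hY : ∀ x ∈ Y, ∀ s ∈ S, x * s * x⁻¹ ∈ S) :
    S.Normal := by
  have key : ∀ Z : Subgroup Q, (∀ x ∈ Z, ∀ s ∈ S, x * s * x⁻¹ ∈ S) →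
      Z ≤ Subgroup.normalizer (S : Set Q) := by
    intro Z hZ x hx
    rw [Subgroup.mem_normalizer_iff]
    intro s
    refine ⟨hZ x hx s, fun hs => ?_⟩
    have := hZ x⁻¹ (Z.inv_mem hx) _ hs
    simpa [mul_assoc] using this
  rw [← Subgroup.normalizer_eq_top_iff, eq_top_iff, ← h]
  exact sup_le (key X hX) (key Y hY)

/-- a solvable primitive group: the regular normal subgroup and a coprime normal subgroup of the
point stabilizer -/
theorem primitive_solvable {Q : Type*} [Group Q] [Finite Q] [Group.IsSolvable Q] (M : Subgroup Q)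
    (hM : IsCoatom M) (hcore : ∀ X : Subgroup Q, X.Normal → X ≤ M → X = ⊥) :
    ∃ (p : ℕ) (E : Subgroup Q), p.Prime ∧ E.Normal ∧ IsPGroup p E ∧ E ⊔ M = ⊤ ∧ E ⊓ M = ⊥ ∧
      (M = ⊥ ∨ ∃ S : Subgroup Q, S ≤ M ∧ S ≠ ⊥ ∧ (∀ m ∈ M, ∀ s ∈ S, m * s * m⁻¹ ∈ S) ∧
        (Nat.card S).Coprime p) := by
  have hnt : Nontrivial Q := by
    by_contra hn
    rw [not_nontrivial_iff_subsingleton] at hn
    exact hM.1 (Subsingleton.elim _ _)
  obtain ⟨p, E, hp, hEn, hE0, hEp, hEc, hEmin⟩ := Helper1.exists_normal_pSubgroup_of_solvable (G := Q)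
  have hEM : ¬ E ≤ M := fun h => hE0 (hcore E hEn h)
  have hsup : E ⊔ M = ⊤ := hM.2 _ (right_lt_sup.2 hEM)
  have hcommE : ∀ a ∈ E, ∀ b ∈ E, a * b = b * a := by
    intro a ha b hb
    have := hEc.is_comm.comm (⟨a, ha⟩ : E) ⟨b, hb⟩
    exact congrArg Subtype.val this
  have hinf : E ⊓ M = ⊥ := by
    apply hcore _ _ inf_le_right
    apply normal_of_sup_eq_top hsup
    · intro x hx s hs
      have : x * s * x⁻¹ = s := by
        rw [hcommE x hx s hs.1, mul_inv_cancel_right]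
      rw [this]; exact hs
    · intro x hx s hs
      exact ⟨hEn.conj_mem s hs.1 x, M.mul_mem (M.mul_mem hx hs.2) (M.inv_mem hx)⟩
  refine ⟨p, E, hp, hEn, hEp, hsup, hinf, ?_⟩
  by_cases hM0 : M = ⊥
  · exact Or.inl hM0
  right
  have hntM : Nontrivial M := (Subgroup.nontrivial_iff_ne_bot M).2 hM0
  obtain ⟨r, S', hr, hSn, hS0, hSr, -, -⟩ := Helper1.exists_normal_pSubgroup_of_solvable (G := M)
  set S : Subgroup Q := S'.map M.subtype with hS
  have hSM : S ≤ M := Subgroup.map_subtype_le S'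
  have hSne : S ≠ ⊥ := by
    intro h
    apply hS0
    rw [hS, Subgroup.map_eq_bot_iff_of_injective _ M.subtype_injective] at h
    exact h
  have hSnorm : ∀ m ∈ M, ∀ s ∈ S, m * s * m⁻¹ ∈ S := by
    rintro m hm _ ⟨s, hs, rfl⟩
    exact ⟨⟨m, hm⟩ * s * ⟨m, hm⟩⁻¹, hSn.conj_mem s hs _, rfl⟩
  have hSr' : IsPGroup r S := hSr.map M.subtype
  refine ⟨S, hSM, hSne, hSnorm, ?_⟩
  have := Fact.mk hr
  have := Fact.mk hp
  obtain ⟨k, hk⟩ := IsPGroup.iff_card.1 hSr'
  rw [hk]
  apply Nat.Coprime.pow_left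
  rw [Nat.coprime_primes hr hp]
  rintro rfl
  -- `r = p`
  apply hSne
  apply hcore S _ hSM
  have hPn : (E ⊔ S).Normal := by
    apply normal_of_sup_eq_top hsup
    · intro x hx s hs
      have hx' : x ∈ E ⊔ S := (le_sup_left : E ≤ E ⊔ S) hx
      exact (E ⊔ S).mul_mem ((E ⊔ S).mul_mem hx' hs) ((E ⊔ S).inv_mem hx')
    · intro x hx s hs
      obtain ⟨a, ha, b, hb, rfl⟩ := Subgroup.mem_sup_of_normal_left.1 hs
      have : x * (a * b) * x⁻¹ = (x * a * x⁻¹) * (x * b * x⁻¹) := by group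
      rw [this]
      exact (E ⊔ S).mul_mem ((le_sup_left : E ≤ E ⊔ S) (hEn.conj_mem a ha x))
        ((le_sup_right : S ≤ E ⊔ S) (hSnorm x hx b hb))
  have hPp : IsPGroup r (E ⊔ S : Subgroup Q) := IsPGroup.to_sup_of_normal_left hEp hSr'
  have hcent := Lead.le_centralizer_of_isMinNormal (p := r) (E := E) ⟨hEn, hE0, hEmin⟩ hEp (E ⊔ S)
    (by
      intro x hx
      obtain ⟨j, hj⟩ := hPp ⟨x, hx⟩
      refine ⟨j, ?_⟩
      have : x ^ r ^ j = 1 := congrArg Subtype.val hj
      rw [this]; exact Subgroup.one_mem _)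
  apply normal_of_sup_eq_top hsup _ hSnorm
  intro x hx s hs
  have h1 := hcent ((le_sup_right : S ≤ E ⊔ S) hs)
  rw [Subgroup.mem_centralizer_iff] at h1
  have h2 := h1 x hx
  have : x * s * x⁻¹ = s := by rw [h2, mul_inv_cancel_right]
  rw [this]; exact hs

/-- the same, pulled back to a group with a maximal subgroup -/
theorem maximal_solvable {G : Type*} [Group G] [Finite G] (H L : Subgroup G) [hL : L.Normal]
    (hH : IsCoatom H) (hLH : L ≤ H) (hcore : ∀ X : Subgroup G, X.Normal → X ≤ H → X ≤ L)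
    (hsolv : Group.IsSolvable (G ⧸ L)) :
    ∃ (p : ℕ) (K : Subgroup G), p.Prime ∧ K.Normal ∧ L ≤ K ∧ K ⊔ H = ⊤ ∧ K ⊓ H = L ∧
      (∃ m : ℕ, Nat.card K = p ^ m * Nat.card L) ∧
      (H = L ∨ ∃ R : Subgroup G, L ≤ R ∧ R ≤ H ∧ ¬ R ≤ L ∧ (∀ h ∈ H, ∀ x ∈ R, h * x * h⁻¹ ∈ R) ∧
        (L.relIndex R).Coprime p) := by
  set q := QuotientGroup.mk' L with hq
  have hqs : Function.Surjective q := QuotientGroup.mk'_surjective L
  have hker : q.ker = L := QuotientGroup.ker_mk' L
  have hcm : (H.map q).comap q = H := Subgroup.comap_map_eq_self (by rw [hker]; exact hLH)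
  have hbot : (⊥ : Subgroup (G ⧸ L)).comap q = L := hker
  have hmapL : L.map q = ⊥ := by
    rw [Subgroup.map_eq_bot_iff, hker]
  have hM : IsCoatom (H.map q) := by
    constructor
    · intro h
      apply hH.1
      rw [← hcm, h, Subgroup.comap_top]
    · intro X hX
      have h1 : H < X.comap q := by
        rw [← hcm]
        refine lt_of_le_of_ne (Subgroup.comap_mono hX.le) ?_
        intro h
        have := congrArg (Subgroup.map q) h
        rw [Subgroup.map_comap_eq_self_of_surjective hqs,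
          Subgroup.map_comap_eq_self_of_surjective hqs] at this
        exact hX.ne this
      have h2 := hH.2 _ h1
      rw [← Subgroup.map_comap_eq_self_of_surjective hqs X, h2,
        Subgroup.map_top_of_surjective q hqs]
  have hcore' : ∀ X : Subgroup (G ⧸ L), X.Normal → X ≤ H.map q → X = ⊥ := by
    intro X hX hXM
    have h1 : X.comap q ≤ L := by
      apply hcore _ (hX.comap q)
      rw [← hcm]
      exact Subgroup.comap_mono hXM
    rw [← Subgroup.map_comap_eq_self_of_surjective hqs X, eq_bot_iff]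
    exact (Subgroup.map_mono h1).trans hmapL.le
  obtain ⟨p, E, hp, hEn, hEp, hsup, hinf, hS⟩ := primitive_solvable (H.map q) hM hcore'
  have := Fact.mk hp
  refine ⟨p, E.comap q, hp, hEn.comap q, ?_, ?_, ?_, ?_, ?_⟩
  · exact hbot.symm.le.trans (Subgroup.comap_mono bot_le)
  · conv_lhs => rw [← hcm]
    rw [Subgroup.comap_sup_eq q _ _ hqs, hsup, Subgroup.comap_top]
  · conv_lhs => rw [← hcm]
    rw [← Subgroup.comap_inf, hinf, hbot]
  · obtain ⟨m, hm⟩ := IsPGroup.iff_card.1 hEp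
    refine ⟨m, ?_⟩
    rw [hq, Lead.card_comap_mk', hm, mul_comm]
  · rcases hS with hS | ⟨S, hSM, hS0, hSn, hSc⟩
    · left
      rw [← hcm, hS, hbot]
    · right
      refine ⟨S.comap q, ?_, ?_, ?_, ?_, ?_⟩
      · exact hbot.symm.le.trans (Subgroup.comap_mono bot_le)
      · rw [← hcm]; exact Subgroup.comap_mono hSM
      · intro h
        apply hS0
        rw [← Subgroup.map_comap_eq_self_of_surjective hqs S, eq_bot_iff]
        exact (Subgroup.map_mono h).trans hmapL.le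
      · intro h hh x hx
        rw [Subgroup.mem_comap] at hx ⊢
        rw [map_mul, map_mul, map_inv]
        exact hSn _ (Subgroup.mem_map_of_mem q hh) _ hx
      · have h1 : L.relIndex (S.comap q) = Nat.card S := by
          have h2 := Subgroup.relIndex_comap (⊥ : Subgroup (G ⧸ L)) q (S.comap q)
          rw [Subgroup.map_comap_eq_self_of_surjective hqs, Subgroup.relIndex_bot_left, hbot] at h2
          exact h2
        rw [h1]
        exact hSc

end Cfsg.Agent.Lib.Helper81
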