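import Cfsg.Agent.S4448
import Cfsg.Agent.S0865
import Cfsg.Agent.Lib.Helper81.CharHom
import Cfsg.Agent.Lib.Helper81.CoverChar

/-!
# Invariant characters over invariant characters: coprime layers (Isaacs 13.31)
-/

set_option autoImplicit false

namespace Cfsg.Agent.Lib.Helper81

open Cfsg Cfsg.Agent.Lib Cfsg.Agent.Lib.Helper15 Cfsg.Agent.S4448
open scoped commutatorElement

theorem coprime_card_of_pow {X : Type*} [Group X] [Finite X] (e r : ℕ) (he : e.Coprime r)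
    (h : ∀ x : X, x ^ e = 1) : (Nat.card X).Coprime r := by
  apply Nat.coprime_of_dvd
  intro p hp hpX hpr
  have := Fact.mk hp
  obtain ⟨x, hx⟩ := exists_prime_orderOf_dvd_card' p hpX
  have h1 : p ∣ e := hx ▸ orderOf_dvd_of_pow_eq_one (h x)
  have h2 := Nat.dvd_gcd h1 hpr
  rw [he] at h2
  exact hp.one_lt.ne' (Nat.dvd_one.1 h2)

theorem Sol.map {Γ Δ : Type*} [Group Γ] [Group Δ] {G N : Subgroup Γ} (h : Sol G N) (hNG : N ≤ G)
    (f : Γ →* Δ) (hf : Function.Surjective f) (hker : f.ker ≤ N) : Sol (G.map f) (N.map f) := by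
  intro Hb h1 h2 h3
  have hmap : (Hb.comap f).map f = Hb := Subgroup.map_comap_eq_self_of_surjective hf Hb
  have key : Hb.comap f ≤ N := by
    apply h
    · intro n hn
      exact h1 ⟨n, hn, rfl⟩
    · intro x hx
      obtain ⟨g, hg, hgx⟩ := h2 hx
      have : g⁻¹ * x ∈ f.ker := by
        rw [MonoidHom.mem_ker, map_mul, map_inv, hgx, inv_mul_cancel]
      have h4 := G.mul_mem hg (hNG (hker this))
      rwa [mul_inv_cancel_left] at h4
    · intro x hx
      have h4 : f x ∈ (N ⊔ ⁅Hb.comap f, Hb.comap f⁆ : Subgroup Γ).map f := by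
        rw [Subgroup.map_sup, Subgroup.map_commutator, hmap]
        exact h3 hx
      obtain ⟨y, hy, hyx⟩ := h4
      have : y⁻¹ * x ∈ f.ker := by
        rw [MonoidHom.mem_ker, map_mul, map_inv, hyx, inv_mul_cancel]
      have h5 := Subgroup.mul_mem _ hy
        ((le_sup_left : N ≤ N ⊔ ⁅Hb.comap f, Hb.comap f⁆) (hker this))
      rwa [mul_inv_cancel_left] at h5
  rw [← hmap]
  exact Subgroup.map_mono key

theorem Sol.comap {Γ Δ : Type*} [Group Γ] [Group Δ] {G N : Subgroup Δ} (h : Sol G N)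
    (f : Γ →* Δ) (hf : Function.Surjective f) : Sol (G.comap f) (N.comap f) := by
  intro H h1 h2 h3
  have key : H.map f ≤ N := by
    apply h
    · intro n hn
      obtain ⟨x, rfl⟩ := hf n
      exact ⟨x, h1 hn, rfl⟩
    · rintro _ ⟨x, hx, rfl⟩
      exact h2 hx
    · have h4 := Subgroup.map_mono (f := f) h3
      rw [Subgroup.map_sup, Subgroup.map_commutator,
        Subgroup.map_comap_eq_self_of_surjective hf] at h4
      exact h4
  intro x hx
  exact key ⟨x, hx, rfl⟩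

/-- the case of a linear character whose order is prime to `|Γ : G|` -/
theorem pi_case {Γ : Type*} [Group Γ] [Fintype Γ] (G N : Subgroup Γ) [hG : G.Normal]
    [hN : N.Normal] (hNG : N ≤ G) (hcop : (G.index).Coprime (N.relIndex G))
    (hsolv : Group.IsSolvable (Γ ⧸ G) ∨ Sol G N)
    (ν : N →* ℂˣ) (hinv : ∀ (x : Γ) (n : N), ν ⟨x * n * x⁻¹, hN.conj_mem n n.2 x⟩ = ν n)
    (e : ℕ) (he : e.Coprime G.index) (hν : ∀ n, ν n ^ e = 1) :
    ∃ β : G → ℂ, IsIrrCharacter G β ∧ (∀ n : N, β ⟨n, hNG n.2⟩ = β 1 * ν n) ∧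
      ∀ (x : Γ) (g : G), β ⟨x * g * x⁻¹, hG.conj_mem g g.2 x⟩ = β g := by
  classical
  let K : Subgroup Γ := ν.ker.map N.subtype
  have hKmem : ∀ x : Γ, x ∈ K ↔ ∃ h : x ∈ N, ν ⟨x, h⟩ = 1 := by
    intro x
    constructor
    · rintro ⟨n, hn, rfl⟩
      exact ⟨n.2, hn⟩
    · rintro ⟨h, hx⟩
      exact ⟨⟨x, h⟩, hx, rfl⟩
  have hKN : K ≤ N := fun x hx => ((hKmem x).1 hx).1
  have hKn : K.Normal := by
    constructor
    intro n hn x
    obtain ⟨h, hx⟩ := (hKmem n).1 hn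
    exact (hKmem _).2 ⟨hN.conj_mem n h x, by rw [hinv x ⟨n, h⟩, hx]⟩
  let q : Γ →* Γ ⧸ K := QuotientGroup.mk' K
  have hq : Function.Surjective q := QuotientGroup.mk'_surjective K
  have hqker : q.ker = K := QuotientGroup.ker_mk' K
  have hq1 : ∀ x : Γ, q x = 1 ↔ x ∈ K := fun x => QuotientGroup.eq_one_iff x
  have hGbn : (G.map q).Normal := hG.map q hq
  have hNbn : (N.map q).Normal := hN.map q hq
  have hNGb : N.map q ≤ G.map q := Subgroup.map_mono hNG
  have hexp : ∀ x : G.map q, x ^ (N.relIndex G * e) = 1 := by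
    rintro ⟨_, g, hg, rfl⟩
    apply Subtype.ext
    change (q g) ^ (N.relIndex G * e) = 1
    rw [← map_pow, hq1, hKmem]
    have h1 : (⟨g, hg⟩ : G) ^ (N.subgroupOf G).index ∈ N.subgroupOf G :=
      Subgroup.pow_index_mem _ _
    have h2 : g ^ N.relIndex G ∈ N := Subgroup.mem_subgroupOf.1 h1
    refine ⟨by rw [pow_mul]; exact N.pow_mem h2 e, ?_⟩
    have h3 : (⟨g ^ (N.relIndex G * e), by rw [pow_mul]; exact N.pow_mem h2 e⟩ : N)
        = ⟨g ^ N.relIndex G, h2⟩ ^ e := by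
      apply Subtype.ext
      simp [pow_mul]
    rw [h3, map_pow, hν]
  have hindex : (G.map q).index = G.index :=
    Subgroup.index_map_eq G hq (by rw [hqker]; exact hKN.trans hNG)
  have hcopb : (Nat.card (G.map q)).Coprime (G.map q).index := by
    rw [hindex]
    exact coprime_card_of_pow _ _ (Nat.Coprime.mul_left hcop.symm he) hexp
  obtain ⟨S, hS⟩ := Subgroup.exists_right_complement'_of_coprime hcopb
  have hScard : (G.map q).index = Nat.card S := hS.symm.index_eq_card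
  have hnorm : ∀ s ∈ S, ∀ g ∈ G.map q, s * g * s⁻¹ ∈ G.map q := fun s _ g hg =>
    hGbn.conj_mem g hg s
  have hNS : ∀ s ∈ S, ∀ g ∈ N.map q, s * g * s⁻¹ ∈ N.map q := fun s _ g hg =>
    hNbn.conj_mem g hg s
  have hNn : ∀ s ∈ G.map q, ∀ g ∈ N.map q, s * g * s⁻¹ ∈ N.map q := fun s _ g hg =>
    hNbn.conj_mem g hg s
  -- the linear character of the quotient
  let f : N →* N.map q := q.subgroupMap N
  have hf : Function.Surjective f := q.subgroupMap_surjective N
  have hker : f.ker ≤ ν.ker := by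
    intro n hn
    have h1 : q (n : Γ) = 1 := congrArg Subtype.val (MonoidHom.mem_ker.1 hn)
    obtain ⟨h, hx⟩ := (hKmem _).1 ((hq1 _).1 h1)
    exact hx
  let νb : N.map q →* ℂˣ := f.liftOfSurjective hf ⟨ν, hker⟩
  have hνb : ∀ n : N, νb (f n) = ν n := fun n =>
    MonoidHom.liftOfRightInverse_comp_apply f _ _ ⟨ν, hker⟩ n
  have hνinv : ∀ (y : Γ ⧸ K) (n n' : N.map q), (n' : Γ ⧸ K) = y * n * y⁻¹ → νb n' = νb n := by
    intro y n n' hn'
    obtain ⟨x, rfl⟩ := hq y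
    obtain ⟨n₀, rfl⟩ := hf n
    have : n' = f ⟨x * n₀ * x⁻¹, hN.conj_mem n₀ n₀.2 x⟩ := by
      apply Subtype.ext
      rw [hn']
      change q x * q n₀ * (q x)⁻¹ = q (x * n₀ * x⁻¹)
      simp
    rw [this, hνb, hνb, hinv]
  let θb : IrrCharacter (N.map q) := ⟨toFn νb, irr_of_linear (char_toFn νb) (toFn_one' νb)⟩
  have hθinv : InvUnder (N.map q) S (θb : N.map q → ℂ) := by
    intro s _ n n' hn'
    change toFn νb n' = toFn νb n
    rw [toFn_apply, toFn_apply, hνinv s n n' hn']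
  have hex : ∃ βb : IrrCharacter (G.map q),
      classInner (resFun hNGb (βb : G.map q → ℂ)) (θb : N.map q → ℂ) ≠ 0 ∧
        InvUnder (G.map q) S (βb : G.map q → ℂ) := by
    rcases hsolv with hsolv | hsolv
    · have h1 : Group.IsSolvable ((Γ ⧸ K) ⧸ G.map q) := by
        have hle : G ≤ (G.map q).comap q := Subgroup.le_comap_map q G
        apply Group.isSolvable_of_surjective (f := QuotientGroup.map G (G.map q) q hle)
        intro y
        induction y using QuotientGroup.induction_on with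
        | H y =>
          obtain ⟨x, rfl⟩ := hq y
          exact ⟨(x : Γ ⧸ G), rfl⟩
      have h2 : Group.IsSolvable S := by
        apply Group.isSolvable_of_isSolvable_injective
          (f := (QuotientGroup.mk' (G.map q)).comp S.subtype)
        rw [injective_iff_map_eq_one]
        intro s hs
        have h3 : (s : Γ ⧸ K) ∈ G.map q := (QuotientGroup.eq_one_iff _).1 hs
        have h4 : (s : Γ ⧸ K) ∈ G.map q ⊓ S := ⟨h3, s.2⟩
        rw [hS.disjoint.eq_bot, Subgroup.mem_bot] at h4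
        exact Subtype.ext h4
      exact exists_invariant_over S h2 _ (G.map q) (N.map q) rfl hNGb hNn hnorm hNS
        (hScard ▸ hcopb) θb hθinv
    · exact main S (N.map q) hNS θb hθinv _ (G.map q) rfl hNGb hNn hnorm
        (Nat.Coprime.coprime_dvd_left (Subgroup.relIndex_dvd_card _ _) (hScard ▸ hcopb))
        (Sol.map hsolv hNG q hq (by rw [hqker]; exact hKN))
  obtain ⟨βb, hβ1, hβ2⟩ := hex
  have hres := rel_restrict_eq_smul hNGb βb.2 θb.2 hβ1 (by
    intro k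
    funext n
    rw [cj_apply]
    change toFn νb _ = toFn νb n
    rw [toFn_apply, toFn_apply, hνinv k n _ rfl])
  have hc : classInner (resFun hNGb (βb : G.map q → ℂ)) (θb : N.map q → ℂ)
      = (βb : G.map q → ℂ) 1 := by
    have := congrFun hres 1
    rw [Pi.smul_apply, smul_eq_mul] at this
    change (βb : G.map q → ℂ) 1 = _ * toFn νb 1 at this
    rw [toFn_one', mul_one] at this
    exact this.symm
  refine ⟨fun g => (βb : G.map q → ℂ) (q.subgroupMap G g),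
    Helper80.isIrrCharacter_comp (q.subgroupMap G) (q.subgroupMap_surjective G) βb.2, ?_, ?_⟩
  · intro n
    have := congrFun hres (f n)
    rw [Pi.smul_apply, smul_eq_mul, hc] at this
    change (βb : G.map q → ℂ) _ = _ * toFn νb (f n) at this
    rw [toFn_apply, hνb] at this
    change (βb : G.map q → ℂ) _ = (βb : G.map q → ℂ) (q.subgroupMap G 1) * _
    rw [map_one]
    exact this
  · intro x g
    obtain ⟨⟨a, s⟩, has⟩ := hS.2 (q x)
    have has' : (a : Γ ⧸ K) * (s : Γ ⧸ K) = q x := has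
    have h1 := hβ2 s s.2 (q.subgroupMap G g)
      ⟨s * q g * (s : Γ ⧸ K)⁻¹, hnorm s s.2 _ (q.subgroupMap G g).2⟩ rfl
    have h2 := irr_cf βb.2 ⟨s * q g * (s : Γ ⧸ K)⁻¹, hnorm s s.2 _ (q.subgroupMap G g).2⟩ a
    change (βb : G.map q → ℂ) _ = (βb : G.map q → ℂ) (q.subgroupMap G g)
    rw [← h1, ← h2]
    refine congrArg _ (Subtype.ext ?_)
    change q (x * g * x⁻¹) = a * (s * q g * (s : Γ ⧸ K)⁻¹) * (a : Γ ⧸ K)⁻¹
    rw [map_mul, map_mul, map_inv, ← has']
    group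

theorem exists_factor (r : ℕ) : ∀ n : ℕ, 0 < n → ∃ a b k, n = a * b ∧ b ∣ r ^ k ∧ a.Coprime r := by
  intro n
  induction n using Nat.strong_induction_on with
  | _ n ih =>
    intro hn
    by_cases hc : n.Coprime r
    · exact ⟨n, 1, 0, (mul_one n).symm, one_dvd _, hc⟩
    · obtain ⟨n', hn'⟩ := Nat.gcd_dvd_left n r
      have hd0 : 0 < n.gcd r := Nat.gcd_pos_of_pos_left r hn
      have hd1 : 1 < n.gcd r := lt_of_le_of_ne hd0 (Ne.symm hc)
      have hn'0 : 0 < n' := by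
        rcases Nat.eq_zero_or_pos n' with h | h
        · rw [h, mul_zero] at hn'
          omega
        · exact h
      have hlt : n' < n := by
        calc n' = 1 * n' := (one_mul _).symm
          _ < n.gcd r * n' := Nat.mul_lt_mul_of_pos_right hd1 hn'0
          _ = n := hn'.symm
      obtain ⟨a, b, k, h1, h2, h3⟩ := ih n' hlt hn'0
      refine ⟨a, n.gcd r * b, k + 1, ?_, ?_, h3⟩
      · calc n = n.gcd r * n' := hn'
          _ = n.gcd r * (a * b) := by rw [h1]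
          _ = a * (n.gcd r * b) := by ring
      · rw [pow_succ, mul_comm (r ^ k)]
        exact Nat.mul_dvd_mul (Nat.gcd_dvd_right n r) h2

/-- **Isaacs 13.31 for linear characters.** -/
theorem linear_case {Γ : Type*} [Group Γ] [Fintype Γ] (G N : Subgroup Γ) [hG : G.Normal]
    [hN : N.Normal] (hNG : N ≤ G) (hcop : (G.index).Coprime (N.relIndex G))
    (hsolv : Group.IsSolvable (Γ ⧸ G) ∨ Sol G N)
    (ν : N →* ℂˣ) (hinv : ∀ (x : Γ) (n : N), ν ⟨x * n * x⁻¹, hN.conj_mem n n.2 x⟩ = ν n) :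
    ∃ β : G → ℂ, IsIrrCharacter G β ∧ (∀ n : N, β ⟨n, hNG n.2⟩ = β 1 * ν n) ∧
      ∀ (x : Γ) (g : G), β ⟨x * g * x⁻¹, hG.conj_mem g g.2 x⟩ = β g := by
  classical
  obtain ⟨a, b, k, hab, hb, ha⟩ := exists_factor G.index (Nat.card N) Nat.card_pos
  have hbm : (N.relIndex G).Coprime b :=
    (Nat.Coprime.coprime_dvd_left hb (Nat.Coprime.pow_left k hcop)).symm
  have hab' : a.Coprime b := Nat.Coprime.coprime_dvd_right hb (Nat.Coprime.pow_right k ha)
  have hbez := Nat.gcd_eq_gcd_ab a b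
  rw [hab'] at hbez
  have hcard : ∀ n : N, ν n ^ (a * b) = 1 := by
    intro n
    rw [← hab, ← map_pow, pow_card_eq_one', map_one]
  let ν₁ : N →* ℂˣ := (zpowGroupHom ((a : ℤ) * Nat.gcdA a b)).comp ν
  let ν₂ : N →* ℂˣ := (zpowGroupHom ((b : ℤ) * Nat.gcdB a b)).comp ν
  have hν₁ : ∀ n, ν₁ n = ν n ^ ((a : ℤ) * Nat.gcdA a b) := fun n => rfl
  have hν₂ : ∀ n, ν₂ n = ν n ^ ((b : ℤ) * Nat.gcdB a b) := fun n => rfl
  have hmul : ∀ n, ν n = ν₁ n * ν₂ n := by
    intro n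
    rw [hν₁, hν₂, ← zpow_add, ← hbez]
    simp
  have hpow₁ : ∀ n, ν₁ n ^ b = 1 := by
    intro n
    rw [hν₁, ← zpow_natCast, ← zpow_mul]
    have : (a : ℤ) * Nat.gcdA a b * b = ((a * b : ℕ) : ℤ) * Nat.gcdA a b := by push_cast; ring
    rw [this, zpow_mul, zpow_natCast, hcard, one_zpow]
  have hpow₂ : ∀ n, ν₂ n ^ a = 1 := by
    intro n
    rw [hν₂, ← zpow_natCast, ← zpow_mul]
    have : (b : ℤ) * Nat.gcdB a b * a = ((a * b : ℕ) : ℤ) * Nat.gcdB a b := by push_cast; ring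
    rw [this, zpow_mul, zpow_natCast, hcard, one_zpow]
  have hinv₁ : ∀ (x : Γ) (n : N), ν₁ ⟨x * n * x⁻¹, hN.conj_mem n n.2 x⟩ = ν₁ n := by
    intro x n
    rw [hν₁, hν₁, hinv]
  have hinv₂ : ∀ (x : Γ) (n : N), ν₂ ⟨x * n * x⁻¹, hN.conj_mem n n.2 x⟩ = ν₂ n := by
    intro x n
    rw [hν₂, hν₂, hinv]
  obtain ⟨β₂, hβ₂, hβ₂N, hβ₂inv⟩ := pi_case G N hNG hcop hsolv ν₂ hinv₂ a ha hpow₂
  -- the canonical extension of `ν₁`
  have hnormal : (N.subgroupOf G).Normal := hN.subgroupOf G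
  let ν₁' : N.subgroupOf G →* ℂˣ := ν₁.comp (Subgroup.subgroupOfEquivOfLe hNG).toMonoidHom
  have hν₁' : ∀ x : N.subgroupOf G, ν₁' x = ν₁ ⟨((x : G) : Γ), Subgroup.mem_subgroupOf.1 x.2⟩ :=
    fun x => rfl
  have hord : ∀ μ : G → ℂ, μ ^ b = 1 → Nat.Coprime (N.subgroupOf G).index (orderOf μ) := by
    intro μ hμ
    exact Nat.Coprime.coprime_dvd_right (orderOf_dvd_of_pow_eq_one hμ) hbm
  have hlamb : (toFn ν₁') ^ b = 1 := by
    funext x
    rw [Pi.pow_apply, toFn_apply, ← Units.val_pow_eq_pow_val, hν₁', hpow₁]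
    rfl
  obtain ⟨μ, ⟨hμ1, hμ2, hμ3, hμ4⟩, hμuniq⟩ := Cfsg.Agent.S0865.result (N.subgroupOf G) (toFn ν₁')
    ⟨char_toFn _, toFn_one' _⟩ (by
      intro g n
      rw [toFn_apply, toFn_apply, hν₁', hν₁']
      exact congrArg _ (hinv₁ (g : Γ) ⟨((n : G) : Γ), Subgroup.mem_subgroupOf.1 n.2⟩))
    (Nat.Coprime.coprime_dvd_right (orderOf_dvd_of_pow_eq_one hlamb) hbm)
  have hμb : μ ^ b = 1 := by
    rw [← orderOf_dvd_iff_pow_eq_one, hμ4]
    exact orderOf_dvd_of_pow_eq_one hlamb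
  have hμinv : ∀ (x : Γ) (g : G), μ ⟨x * g * x⁻¹, hG.conj_mem g g.2 x⟩ = μ g := by
    intro x g
    have h1 : μ ∘ (MulAut.conjNormal x : G ≃* G) = μ := by
      apply hμuniq _ ⟨char_comp_equiv _ hμ1, by rw [Function.comp_apply, map_one, hμ2]⟩
      · intro n
        have h2 := hμ3 ⟨⟨x * n * x⁻¹, hG.conj_mem _ (n : G).2 x⟩,
          Subgroup.mem_subgroupOf.2 (hN.conj_mem _ (Subgroup.mem_subgroupOf.1 n.2) x)⟩
        rw [toFn_apply, hν₁'] at h2
        rw [toFn_apply, hν₁', ← hinv₁ x]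
        exact h2
      · apply hord
        funext g
        have := congrFun hμb ((MulAut.conjNormal x : G ≃* G) g)
        exact this
    exact congrFun h1 g
  refine ⟨μ * β₂, irr_linear_mul hμ1 hμ2 hβ₂, ?_, ?_⟩
  · intro n
    have h2 := hμ3 ⟨⟨n, hNG n.2⟩, Subgroup.mem_subgroupOf.2 n.2⟩
    rw [toFn_apply, hν₁'] at h2
    have h3 : μ ⟨n, hNG n.2⟩ = (ν₁ n : ℂ) := h2
    rw [Pi.mul_apply, Pi.mul_apply, hβ₂N, h3, hμ2, hmul n]
    push_cast
    ring
  · intro x g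
    rw [Pi.mul_apply, Pi.mul_apply, hμinv, hβ₂inv]

end Cfsg.Agent.Lib.Helper81
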