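import Cfsg.Agent.Lib.Helper81.BergerCore
import Cfsg.Agent.Lib.Helper81.BergerGT
import Cfsg.Agent.S4450

/-!
# Berger's theorem: quasi-primitive characters over a solvable quotient are primitive
-/

set_option autoImplicit false

namespace Cfsg.Agent.Lib.Helper81

open Cfsg Cfsg.Agent.Lib Cfsg.Agent.Lib.Helper15
open scoped ComplexConjugate commutatorElement

universe u

/-- the restriction of `χ` to `M` is a multiple of an irreducible character -/
def Homog {G : Type*} [Group G] (χ : G → ℂ) (M : Subgroup G) : Prop :=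
  ∃ (φ : M → ℂ) (e : ℕ), IsIrrCharacter M φ ∧ (fun m : M => χ m) = (e : ℂ) • φ

/-- the relative form of Berger's theorem, for `|G : N| ≤ n` -/
def Prim (n : ℕ) : Prop :=
  ∀ (G : Type u) [Group G] [Fintype G] (N : Subgroup G) [N.Normal], N.index ≤ n →
    Group.IsSolvable (G ⧸ N) → ∀ χ : G → ℂ, IsIrrCharacter G χ →
    (∀ M : Subgroup G, M.Normal → N ≤ M → Homog χ M) →
    ∀ H : Subgroup G, N ≤ H → H ≠ ⊤ → ∀ ϑ : H → ℂ, IsCharacter H ϑ → indFun H ϑ ≠ χ

theorem reduce_maximal {G : Type*} [Group G] [Fintype G] {χ : G → ℂ} (hχ : IsIrrCharacter G χ)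
    (N : Subgroup G)
    (h : ∀ H : Subgroup G, IsCoatom H → N ≤ H → ∀ ϑ : H → ℂ, IsIrrCharacter H ϑ →
      indFun H ϑ ≠ χ) :
    ∀ H : Subgroup G, N ≤ H → H ≠ ⊤ → ∀ ϑ : H → ℂ, IsCharacter H ϑ → indFun H ϑ ≠ χ := by
  classical
  intro H hNH hH ϑ hϑ hind
  obtain ⟨H', hH', hle⟩ := (eq_top_or_exists_le_coatom H).resolve_left hH
  obtain ⟨ν, hν, hνind⟩ := exists_ind_of_le hle hϑ
  have hidx : (H'.index : ℂ) ≠ 0 := by exact_mod_cast Subgroup.index_ne_zero_of_finite
  have hν0 : ν ≠ 0 := by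
    rintro rfl
    apply irr_one_ne_zero hχ
    rw [← hind, ← hνind, indFun_one]
    simp
  obtain ⟨ν₁, hν₁, hne⟩ := exists_constituent hν hν0
  have hγ := char_sub_irr hν hν₁ hne
  have hsum : indFun H' ν₁ + indFun H' (ν - ν₁) = χ := by
    rw [← indFun_add, add_sub_cancel, hνind, hind]
  have h1 := eq_zero_of_add_irr (char_indFun H' (irr_char hν₁)) (char_indFun H' hγ)
    (by rw [hsum]; exact hχ) (by
      intro h0
      have := congrFun h0 1
      rw [indFun_one, Pi.zero_apply] at this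
      exact (mul_ne_zero hidx (irr_one_ne_zero hν₁)) this)
  have h2 : ν - ν₁ = 0 := by
    apply Helper74.IsCharacter.eq_zero_of_one_eq_zero hγ
    have := congrFun h1 1
    rw [indFun_one, Pi.zero_apply] at this
    exact (mul_eq_zero.1 this).resolve_left hidx
  exact h H' hH' (hNH.trans hle) ν₁ hν₁ (by rw [← sub_eq_zero.1 h2, hνind, hind])

theorem solvable_quot_of_le {G : Type*} [Group G] (N K : Subgroup G) [N.Normal] [K.Normal]
    (h : N ≤ K) (hs : Group.IsSolvable (G ⧸ N)) : Group.IsSolvable (G ⧸ K) := by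
  apply Group.isSolvable_of_surjective (f := QuotientGroup.map N K (MonoidHom.id G) h)
  intro x
  induction x using QuotientGroup.induction_on with
  | H x => exact ⟨(x : G ⧸ N), rfl⟩

theorem solvable_quot_comap {A G : Type*} [Group A] [Group G] (π : A →* G) (K : Subgroup G)
    [K.Normal] (hs : Group.IsSolvable (G ⧸ K)) : Group.IsSolvable (A ⧸ K.comap π) := by
  apply Group.isSolvable_of_isSolvable_injective (f := QuotientGroup.map (K.comap π) K π le_rfl)
  rw [injective_iff_map_eq_one]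
  intro x hx
  induction x using QuotientGroup.induction_on with
  | H x =>
    have h1 : ((π x : G) : G ⧸ K) = 1 := hx
    have h2 : π x ∈ K := (QuotientGroup.eq_one_iff _).1 h1
    exact (QuotientGroup.eq_one_iff x).2 h2

set_option maxHeartbeats 400000 in
/-- the main step: passing to a central cover in which `η` extends -/
theorem cover_step (n : ℕ) (ih : Prim.{u} n) {G : Type u} [Group G] [Fintype G]
    (K H L R : Subgroup G) [hK : K.Normal] [hL : L.Normal] (hKidx : K.index ≤ n)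
    (hsolvK : Group.IsSolvable (G ⧸ K)) (hKH : K ⊔ H = ⊤) (hKHL : K ⊓ H ≤ L) (hLK : L ≤ K)
    (hLR : L ≤ R) (hRH : R ≤ H) (hRn : ∀ h ∈ H, ∀ x ∈ R, h * x * h⁻¹ ∈ R)
    (χ : G → ℂ) (hχ : IsIrrCharacter G χ) (hqp : ∀ M : Subgroup G, M.Normal → K ≤ M → Homog χ M)
    (ϑ : H → ℂ) (hϑ : IsCharacter H ϑ) (hind : indFun H ϑ = χ)
    (η : K → ℂ) (hη : IsIrrCharacter K η) (e₁ : ℕ) (hχK : (fun k : K => χ k) = (e₁ : ℂ) • η)
    (φ : L → ℂ) (hφ : IsIrrCharacter L φ) (e a : ℕ) (ha : a ≠ 0)
    (hηL : ∀ l : L, η ⟨l, hLK l.2⟩ = e * φ l)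
    (hϑL : ∀ l : L, ϑ ⟨l, hRH (hLR l.2)⟩ = a * φ l)
    (hcard : Nat.card K = e * e * Nat.card L) (hcop : (L.relIndex R).Coprime e) :
    ∀ k ∈ K, ∀ x ∈ R, k * x * k⁻¹ ∈ R := by
  classical
  have he : e ≠ 0 := by
    rintro rfl
    simp only [zero_mul] at hcard
    exact Nat.card_pos.ne' hcard
  have hχK' : ∀ k : K, χ k = e₁ * η k := fun k => congrFun hχK k
  have he₁ : (e₁ : ℂ) ≠ 0 := by
    intro h0
    apply irr_one_ne_zero hχ
    have := hχK' 1
    rw [h0, zero_mul] at this
    exact this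
  have hinv : ∀ (g : G) (k : K), η ⟨g * k * g⁻¹, hK.conj_mem (k : G) k.2 g⟩ = η k := by
    intro g k
    have h1 := hχK' ⟨g * k * g⁻¹, hK.conj_mem (k : G) k.2 g⟩
    have h2 := hχK' k
    have h3 : χ (g * k * g⁻¹) = χ k := irr_cf hχ k g
    rw [← h3, h1] at h2
    exact mul_left_cancel₀ he₁ h2
  obtain ⟨A, _, _, π, j, τ, hπ, hker, hπj, hjn, hτ, hτj⟩ := cover_exists K η hη hinv
  have := Fintype.ofFinite A
  have hLhn : (L.comap π).Normal := hL.comap π
  have hKhn : (K.comap π).Normal := hK.comap π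
  have hL₀n : (j.range ⊓ L.comap π).Normal := inferInstance
  have hjinj : Function.Injective j := by
    intro x y hxy
    apply Subtype.ext
    rw [← hπj x, ← hπj y, hxy]
  -- lattice facts
  have hsup : j.range ⊔ H.comap π = ⊤ := by
    rw [eq_top_iff]
    intro x _
    have h1 : π x ∈ K ⊔ H := by rw [hKH]; exact Subgroup.mem_top _
    obtain ⟨k, hk, h, hh, hkh⟩ := Subgroup.mem_sup_of_normal_left.1 h1
    have h2 : x = j ⟨k, hk⟩ * ((j ⟨k, hk⟩)⁻¹ * x) := by group
    rw [h2]
    apply Subgroup.mul_mem_sup (show j ⟨k, hk⟩ ∈ j.range from ⟨_, rfl⟩)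
    rw [Subgroup.mem_comap, map_mul, map_inv, hπj, ← hkh]
    simpa using hh
  have hinf : j.range ⊓ H.comap π ≤ j.range ⊓ L.comap π := by
    rintro x ⟨⟨k, rfl⟩, hx⟩
    refine ⟨⟨k, rfl⟩, ?_⟩
    have hx' : π (j k) ∈ H := hx
    change π (j k) ∈ L
    rw [hπj] at hx' ⊢
    exact hKHL ⟨k.2, hx'⟩
  have hLhRh : L.comap π ≤ R.comap π := Subgroup.comap_mono hLR
  have hRhHh : R.comap π ≤ H.comap π := Subgroup.comap_mono hRH
  have hL₀Rh : j.range ⊓ L.comap π ≤ R.comap π := inf_le_right.trans hLhRh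
  have hL₀Hh : j.range ⊓ L.comap π ≤ H.comap π := hL₀Rh.trans hRhHh
  have hRhn : ∀ h ∈ H.comap π, ∀ x ∈ R.comap π, h * x * h⁻¹ ∈ R.comap π := by
    intro h hh x hx
    rw [Subgroup.mem_comap, map_mul, map_mul, map_inv]
    exact hRn _ hh _ hx
  -- characters
  have hσ : IsIrrCharacter A (fun x => conj (τ x)) := IsIrrCharacter.star hτ
  have hτK : IsIrrCharacter j.range (fun k : j.range => τ k) :=
    irr_of_comp_irr j.rangeRestrict (char_restrict (irr_char hτ) _) (by
      change IsIrrCharacter K (fun k => τ (j k))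
      rw [funext hτj]; exact hη)
  have hσK : IsIrrCharacter j.range (fun k : j.range => conj (τ k)) := IsIrrCharacter.star hτK
  have hχh : IsIrrCharacter A (fun x => χ (π x)) := Helper80.isIrrCharacter_comp π hπ hχ
  have hmem : (fun x => χ (π x)) ∈ {ψ : A → ℂ | IsIrrCharacter A ψ ∧
      classInner (fun n : j.range => ψ n) (fun n : j.range => τ n) ≠ 0} := by
    refine ⟨hχh, ?_⟩
    have h1 : (fun n : j.range => χ (π n)) = (e₁ : ℂ) • fun n : j.range => τ n := by
      funext ⟨_, k, rfl⟩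
      change χ (π (j k)) = e₁ * τ (j k)
      rw [hπj, hτj, hχK']
    rw [h1, classInner_smul_left, irr_inner_self hτK, mul_one]
    exact he₁
  obtain ⟨β, ⟨hβ, hβ1⟩, hβτ⟩ := (gallagher j.range hτ hτK).surjOn hmem
  have hβτ' : β * τ = fun x => χ (π x) := hβτ
  have hβK : ∀ k : j.range, β k = β 1 := (restrict_eq_of_inner_one_ne_zero j.range hβ hβ1).2
  have hβmul : ∀ (k : j.range) (x : A), β (k * x) = β x := by
    intro k x
    have h1 : (k : A) * x = x * (x⁻¹ * k * x⁻¹⁻¹) := by group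
    rw [h1]
    exact Helper80.char_mul_of_mem_ker (irr_char hβ) (hβK ⟨_, hjn.conj_mem k k.2 x⁻¹⟩) x
  have hϑh : IsCharacter (H.comap π) (fun x : H.comap π => ϑ ⟨π x, x.2⟩) :=
    Helper80.isCharacter_comp (π.subgroupComap H) hϑ
  have hindh : indFun (H.comap π) (fun x : H.comap π => ϑ ⟨π x, x.2⟩) = fun x => χ (π x) := by
    rw [indFun_comap π hπ H ϑ, hind]
  have havg : avg j.range (indFun (H.comap π) ((fun x : H.comap π => ϑ ⟨π x, x.2⟩) *
      fun h : H.comap π => conj (τ h))) = β := by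
    rw [indFun_mul_restrict (H.comap π) _ (irr_cf hσ), hindh, ← hβτ']
    exact avg_mul_conj j.range hτ hτK hβmul
  have hprim : ∀ W : Subgroup A, j.range ⊔ R.comap π ≤ W → W ≠ ⊤ → ∀ ν : W → ℂ,
      IsCharacter W ν → indFun W ν ≠ β := by
    intro W hW hWtop ν hν
    apply ih A (K.comap π) (by rw [Subgroup.index_comap_of_surjective K hπ]; exact hKidx)
      (solvable_quot_comap π K hsolvK) β hβ ?_ W ?_ hWtop ν hν
    · intro M hM hKhM
      have hMn : (M.map π).Normal := hM.map π hπ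
      have hKM : K ≤ M.map π := by
        intro k hk
        exact ⟨j ⟨k, hk⟩, hKhM (Subgroup.mem_comap.2 (by rw [hπj]; exact hk)), hπj _⟩
      obtain ⟨ξ, eM, hξ, hξe⟩ := hqp (M.map π) hMn hKM
      have hK₀M : j.range ≤ M := by
        rintro _ ⟨k, rfl⟩
        exact hKhM (Subgroup.mem_comap.2 (by rw [hπj]; exact k.2))
      exact homog_of_mul_homog j.range M hK₀M hτ hτK hβ hβK
        (Helper80.isIrrCharacter_comp _ (π.subgroupMap_surjective M) hξ) eM (by
          funext m
          have h1 := congrFun hξe (π.subgroupMap M m)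
          have h2 := congrFun hβτ' m
          rw [Pi.mul_apply] at h2
          rw [h2]
          exact h1)
    · intro x hx
      have h2 : x = j ⟨π x, hx⟩ * ((j ⟨π x, hx⟩)⁻¹ * x) := by group
      rw [h2]
      apply hW
      apply Subgroup.mul_mem_sup (show j ⟨π x, hx⟩ ∈ j.range from ⟨_, rfl⟩)
      rw [Subgroup.mem_comap, map_mul, map_inv, hπj, inv_mul_cancel]
      exact R.one_mem
  -- the characters of `L`
  have hφh : IsIrrCharacter (L.comap π) (fun x : L.comap π => conj (φ ⟨π x, x.2⟩)) :=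
    IsIrrCharacter.star (Helper80.isIrrCharacter_comp (π.subgroupComap L)
      (π.subgroupComap_surjective_of_surjective L hπ) hφ)
  let jL : L →* (j.range ⊓ L.comap π : Subgroup A) :=
    (j.comp (Subgroup.inclusion hLK)).codRestrict _ (fun l =>
      ⟨⟨_, rfl⟩, Subgroup.mem_comap.2 (by
        change π (j _) ∈ L
        rw [hπj]; exact l.2)⟩)
  have hjL : ∀ l : L, ((jL l : (j.range ⊓ L.comap π : Subgroup A)) : A) = j ⟨l, hLK l.2⟩ :=
    fun l => rfl
  have hφ₀ : IsIrrCharacter (j.range ⊓ L.comap π : Subgroup A)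
      (fun l : (j.range ⊓ L.comap π : Subgroup A) => conj (φ ⟨π l, l.2.2⟩)) :=
    irr_of_comp_irr jL (char_resFun inf_le_right (irr_char hφh)) (by
      have h1 : (fun l : L => conj (φ ⟨π (jL l), (jL l).2.2⟩)) = fun l : L => conj (φ l) := by
        funext l
        refine congrArg _ (congrArg _ (Subtype.ext ?_))
        change π (jL l) = l
        rw [hjL, hπj]
      rw [h1]
      exact IsIrrCharacter.star hφ)
  have hσL₀ : (fun l : (j.range ⊓ L.comap π : Subgroup A) => conj (τ l))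
      = (e : ℂ) • fun l : (j.range ⊓ L.comap π : Subgroup A) => conj (φ ⟨π l, l.2.2⟩) := by
    funext ⟨_, ⟨k, rfl⟩, hx⟩
    have hkL : (k : G) ∈ L := by
      have hx' : π (j k) ∈ L := hx
      rw [hπj] at hx'; exact hx'
    change conj (τ (j k)) = e * conj (φ ⟨π (j k), hx⟩)
    rw [hτj]
    have h1 := hηL ⟨k, hkL⟩
    have h2 : (⟨π (j k), hx⟩ : L) = ⟨k, hkL⟩ := Subtype.ext (hπj k)
    rw [h2]
    have h3 : η k = e * φ ⟨k, hkL⟩ := h1
    rw [h3, map_mul, Complex.conj_natCast]
  have hϑL₀ : (fun l : (j.range ⊓ L.comap π : Subgroup A) =>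
      (fun x : H.comap π => ϑ ⟨π x, x.2⟩) ⟨l, hL₀Hh l.2⟩)
      = (a : ℂ) • fun l : (j.range ⊓ L.comap π : Subgroup A) => conj (conj (φ ⟨π l, l.2.2⟩)) := by
    funext l
    rw [Pi.smul_apply, smul_eq_mul, Complex.conj_conj]
    exact hϑL ⟨π l, l.2.2⟩
  have hcard₀ : Nat.card j.range = e * e * Nat.card (j.range ⊓ L.comap π : Subgroup A) := by
    have h1 : Nat.card j.range = Nat.card K :=
      (Nat.card_congr (MonoidHom.ofInjective hjinj).toEquiv).symm
    have h2 : Nat.card L = Nat.card (j.range ⊓ L.comap π : Subgroup A) := by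
      apply Nat.card_eq_of_bijective jL
      constructor
      · intro x y hxy
        have h3 := congrArg (fun z : (j.range ⊓ L.comap π : Subgroup A) => (z : A)) hxy
        simp only [hjL] at h3
        exact Subtype.ext (congrArg (fun z : K => (z : G)) (hjinj h3))
      · rintro ⟨_, ⟨k, rfl⟩, hx⟩
        have hkL : (k : G) ∈ L := by
          have hx' : π (j k) ∈ L := hx
          rw [hπj] at hx'; exact hx'
        exact ⟨⟨k, hkL⟩, Subtype.ext rfl⟩
    rw [h1, ← h2, hcard]
  have hab : ∀ x ∈ L.comap π, ∀ y ∈ L.comap π, ⁅x, y⁆ ∈ j.range ⊓ L.comap π := by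
    intro x hx y hy
    refine ⟨?_, by
      rw [commutatorElement_def]
      exact (L.comap π).mul_mem ((L.comap π).mul_mem ((L.comap π).mul_mem hx hy)
        ((L.comap π).inv_mem hx)) ((L.comap π).inv_mem hy)⟩
    have hyK : π y ∈ K := hLK hy
    have h1 : y = j ⟨π y, hyK⟩ * ((j ⟨π y, hyK⟩)⁻¹ * y) := by group
    have h2 : (j ⟨π y, hyK⟩)⁻¹ * y ∈ Subgroup.center A := by
      apply hker
      rw [MonoidHom.mem_ker, map_mul, map_inv, hπj, inv_mul_cancel]
    rw [h1, Cfsg.Agent.S4450.comm_central_right _ _ _ h2, commutatorElement_def]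
    exact j.range.mul_mem (hjn.conj_mem _ ⟨_, rfl⟩ x) (j.range.inv_mem ⟨_, rfl⟩)
  have hcop₀ : ((L.comap π).relIndex (R.comap π)).Coprime e := by
    rw [Subgroup.relIndex_comap, Subgroup.map_comap_eq_self_of_surjective hπ]
    exact hcop
  have hς := irr_restrict_of_avg j.range (H.comap π) (j.range ⊓ L.comap π) hsup inf_le_left hL₀Hh
    hinf (irr_char hσ) hβ hϑh havg hφ₀ e a ha hσL₀ hϑL₀
  obtain ⟨ω₁, c, hω₁, hc⟩ := homog_of_prim (σ := fun x => conj (τ x)) (β := β) j.range (H.comap π)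
    (R.comap π) (hinf.trans hL₀Rh) hRhHh hRhn hς hϑh havg hprim
  obtain ⟨hce, hω₁L⟩ := degree_lemma (j.range ⊓ L.comap π) (L.comap π) (R.comap π) inf_le_right
    hLhRh (irr_char hσ) hω₁ c hc hφ₀ e he hσL₀ hφh (fun l => rfl) hab hcop₀
  have hfin := normalizes_of_ramified j.range (j.range ⊓ L.comap π) (R.comap π) inf_le_left hL₀Rh
    hσ hσK hω₁ e (by rw [← hce]; exact hc) (by rw [hω₁L]; exact hφ₀) hcard₀
  intro k hk x hx
  obtain ⟨x', rfl⟩ := hπ x
  have h1 := hfin (j ⟨k, hk⟩) ⟨_, rfl⟩ x' hx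
  rw [Subgroup.mem_comap, map_mul, map_mul, map_inv, hπj] at h1
  exact h1

/-- restriction in a tower, as a linear map -/
def resFunLin {G : Type*} [Group G] {H K : Subgroup G} (h : H ≤ K) : (K → ℂ) →ₗ[ℂ] (H → ℂ) where
  toFun := resFun h
  map_add' _ _ := rfl
  map_smul' _ _ := rfl

theorem prim_succ (n : ℕ) (ih : Prim.{u} n) : Prim.{u} (n + 1) := by
  intro G _ _ N hN hidx hsolv χ hχ hqp
  apply reduce_maximal hχ
  intro H hHmax hNH ϑ hϑ hind
  classical
  have hLn : H.normalCore.Normal := H.normalCore_normal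
  have hLH : H.normalCore ≤ H := H.normalCore_le
  have hNL : N ≤ H.normalCore := Subgroup.normal_le_normalCore.2 hNH
  have hsolvL : Group.IsSolvable (G ⧸ H.normalCore) := solvable_quot_of_le N _ hNL hsolv
  obtain ⟨p, K, hp, hKn, hLK, hKH, hKHL, ⟨m, hm⟩, hR⟩ := maximal_solvable H H.normalCore hHmax hLH
    (fun X hX hXH => Subgroup.normal_le_normalCore.2 hXH) hsolvL
  rcases hR with hHL | ⟨R, hLR, hRH, hRL, hRn, hcop⟩
  · obtain ⟨φ, e, hφ, he⟩ := hqp H (by rw [hHL]; exact hLn) hNH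
    exact not_induced_of_homog H hHmax.1 hχ hφ e he (irr_char hϑ) hind
  have hcore : ∀ X : Subgroup G, X.Normal → X ≤ H → X ≤ H.normalCore :=
    fun X hX hXH => Subgroup.normal_le_normalCore.2 hXH
  generalize H.normalCore = L at *
  obtain ⟨η, e₁, hη, hχK⟩ := hqp K hKn (hNL.trans hLK)
  obtain ⟨φ, e₂, hφ, hχL⟩ := hqp L hLn hNL
  have hχK' : ∀ k : K, χ k = e₁ * η k := fun k => congrFun hχK k
  have he₁ : (e₁ : ℂ) ≠ 0 := by
    intro h0
    apply irr_one_ne_zero hχ
    have := hχK' 1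
    rw [h0, zero_mul] at this
    exact this
  -- `η` restricted to `L`
  obtain ⟨e, he⟩ := homog_of_unique (char_resFun hLK (irr_char hη)) hφ (by
    intro ζ hζ hne
    have h1 : (e₁ : ℂ) • resFun hLK η = (e₂ : ℂ) • φ := by
      rw [← hχL]
      funext l
      exact (hχK' ⟨l, hLK l.2⟩).symm
    have h2 : classInner ((e₁ : ℂ) • resFun hLK η) ζ ≠ 0 := by
      rw [classInner_smul_left]
      exact mul_ne_zero he₁ hne
    rw [h1, classInner_smul_left] at h2
    exact (irr_eq_of_inner_ne_zero hφ hζ (right_ne_zero_of_mul h2)).symm)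
  -- `ϑ` restricted to `L`
  have hχϑ : classInner (fun h : H => χ h) ϑ ≠ 0 := by
    rw [inner_comm_of_char (char_restrict (irr_char hχ) H) (irr_char hϑ),
      ← classInner_indFun_left H ϑ χ (irr_cf hχ), hind, irr_inner_self hχ]
    exact one_ne_zero
  obtain ⟨a, ha⟩ := homog_of_unique (char_resFun hLH (irr_char hϑ)) hφ (by
    intro ζ hζ hne
    have h1 := inner_ne_zero_of_constituent (resFunLin hLH) (fun γ hγ => char_resFun hLH hγ)
      (char_restrict (irr_char hχ) H) hϑ hχϑ (irr_char hζ) hne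
    have h2 : resFunLin hLH (fun h : H => χ h) = (e₂ : ℂ) • φ := hχL
    rw [h2, classInner_smul_left] at h1
    exact (irr_eq_of_inner_ne_zero hφ hζ (right_ne_zero_of_mul h1)).symm)
  have ha0 : a ≠ 0 := by
    rintro rfl
    apply irr_one_ne_zero hϑ
    have : ϑ 1 = _ := congrFun ha 1
    simpa using this
  -- `η` vanishes off `L`
  have hvan : ∀ k : K, k ∉ L.subgroupOf K → η k = 0 := by
    intro k hk
    have h1 : χ k = 0 := by
      rw [← hind, indFun_apply]
      apply mul_eq_zero_of_right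
      apply Finset.sum_eq_zero
      intro y _
      apply extendByZero_not_mem
      intro hy
      apply hk
      rw [Subgroup.mem_subgroupOf]
      have h2 : y⁻¹ * k * y ∈ L := by
        rw [← hKHL]
        refine ⟨?_, hy⟩
        have := hKn.conj_mem k k.2 y⁻¹
        rwa [inv_inv] at this
      have h3 := hLn.conj_mem _ h2 y
      have h4 : y * (y⁻¹ * k * y) * y⁻¹ = k := by group
      rwa [h4] at h3
    rw [hχK'] at h1
    exact (mul_eq_zero.1 h1).resolve_left he₁
  have hcard : Nat.card K = e * e * Nat.card L := by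
    have h1 := (vanishes_off_iff (L.subgroupOf K) η).1 hvan
    rw [irr_inner_self hη, ← downFun_resFun hLK η, classInner_downFun hLK, he,
      classInner_smul_left, classInner_smul_right, irr_inner_self hφ, card_subgroupOf_of_le hLK,
      Complex.conj_natCast, mul_one, mul_one] at h1
    have h2 : Nat.card K = Nat.card L * (e * e) := by exact_mod_cast h1
    rw [h2, mul_comm]
  have hcop' : (L.relIndex R).Coprime e := by
    have h1 : e * e = p ^ m := by
      rw [hm] at hcard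
      exact (Nat.eq_of_mul_eq_mul_right Nat.card_pos hcard).symm
    exact Nat.Coprime.coprime_dvd_right ⟨e, h1.symm⟩ (Nat.Coprime.pow_right m hcop)
  have hNK : N < K := by
    refine lt_of_le_of_ne (hNL.trans hLK) ?_
    rintro rfl
    apply hHmax.1
    rw [← hKH]
    exact (sup_eq_right.2 hNH).symm
  have hKidx : K.index ≤ n := by
    have := Subgroup.index_strictAnti hNK
    omega
  have hfin := cover_step n ih K H L R hKidx (solvable_quot_of_le N K hNK.le hsolv) hKH hKHL.le hLK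
    hLR hRH hRn χ hχ (fun M hM hKM => hqp M hM (hNK.le.trans hKM)) ϑ (irr_char hϑ) hind η hη e₁ hχK
    φ hφ e a ha0 (fun l => congrFun he l) (fun l => congrFun ha l) hcard hcop'
  exact hRL (hcore R (normal_of_sup_eq_top hKH hfin hRn) hRH)

theorem prim_all (n : ℕ) : Prim.{u} n := by
  induction n with
  | zero =>
    intro G _ _ N hN hidx
    exfalso
    have : N.index ≠ 0 := Subgroup.index_ne_zero_of_finite
    omega
  | succ n ih => exact prim_succ n ih

/-- **Berger's theorem, relative form**: if `G / N` is solvable and `χ` restricts homogeneously to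
every normal subgroup containing `N`, then `χ` is not induced from a proper subgroup containing
`N`. -/
theorem berger_relative {G : Type u} [Group G] [Fintype G] (N : Subgroup G) [N.Normal]
    (hsolv : Group.IsSolvable (G ⧸ N)) (χ : G → ℂ) (hχ : IsIrrCharacter G χ)
    (hqp : ∀ M : Subgroup G, M.Normal → N ≤ M →
      ∃ (φ : M → ℂ) (e : ℕ), IsIrrCharacter M φ ∧ (fun m : M => χ m) = (e : ℂ) • φ)
    (H : Subgroup G) (hNH : N ≤ H) (hH : H ≠ ⊤) (ϑ : H → ℂ) (hϑ : IsCharacter H ϑ) :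
    indFun H ϑ ≠ χ :=
  prim_all N.index G N le_rfl hsolv χ hχ hqp H hNH hH ϑ hϑ

end Cfsg.Agent.Lib.Helper81
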