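import Cfsg.Agent.Lib.Helper81.BergerChar

/-!
# The character theoretic core of Berger's theorem
-/

set_option autoImplicit false

namespace Cfsg.Agent.Lib.Helper81

open Cfsg Cfsg.Agent.Lib Cfsg.Agent.Lib.Helper15
open scoped ComplexConjugate commutatorElement

variable {G : Type*} [Group G] [Fintype G]

/-- a character whose restriction to `H` is homogeneous is not induced from `H` -/
theorem not_induced_of_homog (H : Subgroup G) [Fintype H] (hH : H ≠ ⊤) {χ : G → ℂ}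
    (hχ : IsIrrCharacter G χ) {φ : H → ℂ} (hφ : IsIrrCharacter H φ) (e : ℕ)
    (hres : (fun h : H => χ h) = (e : ℂ) • φ) {ϑ : H → ℂ} (hϑ : IsCharacter H ϑ) :
    indFun H ϑ ≠ χ := by
  intro hind
  have h1 : classInner ϑ (fun h : H => χ h) = 1 := by
    rw [← classInner_indFun_left H ϑ χ (irr_cf hχ), hind, irr_inner_self hχ]
  rw [hres, classInner_smul_right, Complex.conj_natCast] at h1
  obtain ⟨n, hn⟩ := inner_nat hϑ (irr_char hφ)
  rw [hn] at h1
  have h2 : e * n = 1 := by exact_mod_cast h1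
  have he : e = 1 := Nat.dvd_one.1 ⟨n, h2.symm⟩
  have hn1 : n = 1 := by rw [he, one_mul] at h2; exact h2
  have h3 := char_sub_irr hϑ hφ (by rw [hn, hn1]; simp)
  obtain ⟨m, hm⟩ := char_one_nat h3
  obtain ⟨d, hd⟩ := char_one_nat (irr_char hφ)
  have hd0 : d ≠ 0 := by
    rintro rfl
    exact irr_one_ne_zero hφ (by rw [hd]; simp)
  have h4 : χ 1 = d := by
    have := congrFun hres 1
    simp only [Pi.smul_apply, smul_eq_mul, he, Nat.cast_one, one_mul] at this
    rw [← hd, ← this]; rfl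
  have h5 : ϑ 1 = d + m := by
    rw [← hd, ← hm, Pi.sub_apply]; ring
  have h6 : χ 1 = H.index * ϑ 1 := by rw [← hind, indFun_one]
  rw [h4, h5] at h6
  have h7 : d = H.index * (d + m) := by exact_mod_cast h6
  have h8 : H.index ≠ 1 := fun h => hH (Subgroup.index_eq_one.1 h)
  have h9 : H.index ≠ 0 := Subgroup.index_ne_zero_of_finite
  have h10 : 2 ≤ H.index := by omega
  nlinarith [Nat.pos_of_ne_zero hd0]

/-- if `β τ` is homogeneous on `M ≥ K`, where `τ` restricts irreducibly to `K ≤ ker β`, then `β` is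
homogeneous on `M`. -/
theorem homog_of_mul_homog (K M : Subgroup G) [hK : K.Normal] [M.Normal] (hKM : K ≤ M) [Fintype K]
    [Fintype M] {τ β : G → ℂ} (hτ : IsIrrCharacter G τ)
    (hτK : IsIrrCharacter K (fun k : K => τ k)) (hβ : IsIrrCharacter G β)
    (hβK : ∀ k : K, β k = β 1) {ξ : M → ℂ} (hξ : IsIrrCharacter M ξ) (e : ℂ)
    (h : (fun m : M => β m * τ m) = e • ξ) :
    ∃ (β₁ : M → ℂ) (c : ℕ), IsIrrCharacter M β₁ ∧ (fun m : M => β m) = (c : ℂ) • β₁ := by
  classical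
  have hτM : IsIrrCharacter M (fun m : M => τ m) :=
    irr_of_comp_irr (Subgroup.inclusion hKM) (char_restrict (irr_char hτ) M) hτK
  have hτK' : IsIrrCharacter (K.subgroupOf M) (fun x : K.subgroupOf M => τ ((x : M) : G)) :=
    irr_downFun hKM hτK
  have hβM : IsCharacter M (fun m : M => β m) := char_restrict (irr_char hβ) M
  have hgal := gallagher (K.subgroupOf M) hτM hτK'
  have key : ∀ β₂ : M → ℂ, IsIrrCharacter M β₂ → classInner (fun m : M => β m) β₂ ≠ 0 →
      β₂ ∈ {β : M → ℂ | IsIrrCharacter M β ∧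
        classInner (fun n : K.subgroupOf M => β n) (fun _ => 1) ≠ 0} ∧
      β₂ * (fun m : M => τ m) = ξ := by
    intro β₂ hβ₂ hne
    have h1 : classInner (fun n : K.subgroupOf M => β₂ n) (fun _ => 1) ≠ 0 := by
      obtain ⟨ζ, hζ, hζne⟩ := exists_constituent (char_restrict (irr_char hβ₂) (K.subgroupOf M)) (by
        intro h0
        exact irr_one_ne_zero hβ₂ (congrFun h0 1))
      have h2 := inner_ne_zero_of_constituent (resLin (K.subgroupOf M))
        (fun γ hγ => char_restrict hγ _) hβM hβ₂ hne (irr_char hζ) hζne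
      have h3 : resLin (K.subgroupOf M) (fun m : M => β m) = β 1 • (fun _ => (1 : ℂ)) := by
        funext x
        rw [resLin_apply, Pi.smul_apply, smul_eq_mul, mul_one]
        exact hβK ⟨((x : M) : G), Subgroup.mem_subgroupOf.1 x.2⟩
      rw [h3, classInner_smul_left] at h2
      have h4 := irr_eq_of_inner_ne_zero irr_one hζ (right_ne_zero_of_mul h2)
      rw [h4]
      exact hζne
    have hmem : β₂ ∈ {β : M → ℂ | IsIrrCharacter M β ∧
        classInner (fun n : K.subgroupOf M => β n) (fun _ => 1) ≠ 0} := ⟨hβ₂, h1⟩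
    refine ⟨hmem, ?_⟩
    have hirr : IsIrrCharacter M (β₂ * fun m : M => τ m) := (hgal.mapsTo hmem).1
    have h5 := inner_ne_zero_of_constituent (LinearMap.mulRight ℂ (fun m : M => τ m))
      (fun γ hγ => Helper74.IsCharacter.mul hγ (irr_char hτM)) hβM hβ₂ hne (irr_char hirr) (by
        change classInner (β₂ * fun m : M => τ m) (β₂ * fun m : M => τ m) ≠ 0
        rw [irr_inner_self hirr]; exact one_ne_zero)
    have h6 : LinearMap.mulRight ℂ (fun m : M => τ m) (fun m : M => β m) = e • ξ := h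
    rw [h6, classInner_smul_left] at h5
    exact (irr_eq_of_inner_ne_zero hξ hirr (right_ne_zero_of_mul h5)).symm
  obtain ⟨β₁, hβ₁, hne₁⟩ := exists_constituent hβM (by
    intro h0
    exact irr_one_ne_zero hβ (congrFun h0 1))
  obtain ⟨c, hc⟩ := homog_of_unique hβM hβ₁ (by
    intro ζ hζ hne
    apply hgal.injOn (key ζ hζ hne).1 (key β₁ hβ₁ hne₁).1
    change ζ * (fun m : M => τ m) = β₁ * (fun m : M => τ m)
    rw [(key ζ hζ hne).2, (key β₁ hβ₁ hne₁).2])
  exact ⟨β₁, c, hβ₁, hc⟩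

/-- irreducibility of the restriction of `σ` to the complement `H` -/
theorem irr_restrict_of_avg (K H L : Subgroup G) [K.Normal] [Fintype K] [Fintype H] [Fintype L]
    (hKH : K ⊔ H = ⊤) (hLK : L ≤ K) (hLH : L ≤ H) (hKHL : K ⊓ H ≤ L) {σ β : G → ℂ}
    (hσ : IsCharacter G σ) (hβ : IsIrrCharacter G β) {ϑ : H → ℂ} (hϑ : IsCharacter H ϑ)
    (havg : avg K (indFun H (ϑ * fun h : H => σ h)) = β) {φ : L → ℂ} (hφ : IsIrrCharacter L φ)
    (e a : ℕ) (ha : a ≠ 0) (hσL : (fun l : L => σ l) = (e : ℂ) • φ)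
    (hϑL : (fun l : L => ϑ ⟨l, hLH l.2⟩) = (a : ℂ) • fun l => conj (φ l)) :
    IsIrrCharacter H (fun h : H => σ h) := by
  classical
  let Φ : (H → ℂ) →ₗ[ℂ] (G → ℂ) := (avgLin K).comp ((indLin H).comp (LinearMap.mulLeft ℂ ϑ))
  have hΦ : ∀ ν, Φ ν = avg K (indFun H (ϑ * ν)) := fun _ => rfl
  have hΦchar : ∀ ν, IsCharacter H ν → IsCharacter G (Φ ν) := fun ν hν =>
    char_avg K (char_indFun H (Helper74.IsCharacter.mul hϑ hν))
  have hς : IsCharacter H (fun h : H => σ h) := char_restrict hσ H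
  have key : ∀ ν γ : H → ℂ, IsCharacter H ν → IsCharacter H γ → ν + γ = (fun h : H => σ h) →
      ν ≠ 0 → Φ ν ≠ 0 := by
    intro ν γ hν hγ hsum hν0 h0
    obtain ⟨n, hn⟩ := homog_of_add (char_resFun hLH hν) (char_resFun hLH hγ) hφ e (by
      rw [← hσL]
      funext l
      exact congrFun hsum ⟨l, hLH l.2⟩)
    have hn0 : n ≠ 0 := by
      rintro rfl
      apply hν0
      apply Helper74.IsCharacter.eq_zero_of_one_eq_zero hν
      have : ν 1 = _ := congrFun hn 1
      simpa using this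
    have h1 := congrFun h0 1
    rw [hΦ, avg_indFun_one K H L hKH hLK hLH hKHL] at h1
    have h2 : (fun l : L => (ϑ * ν) ⟨l, hLH l.2⟩)
        = ((a : ℂ) * n) • fun l : L => φ l * conj (φ l) := by
      funext l
      have e1 := congrFun hϑL l
      have e2 : ν ⟨l, hLH l.2⟩ = _ := congrFun hn l
      simp only [Pi.smul_apply, smul_eq_mul] at e1 e2
      rw [Pi.mul_apply, e1, e2, Pi.smul_apply, smul_eq_mul]
      ring
    have h3 : classInner (fun l : L => φ l * conj (φ l)) (fun _ => 1) = classInner φ φ := by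
      unfold classInner
      simp
    rw [h2, classInner_smul_left, h3, irr_inner_self hφ, mul_one, Pi.zero_apply] at h1
    have : a * n = 0 := by exact_mod_cast h1
    rcases Nat.mul_eq_zero.1 this with h | h
    · exact ha h
    · exact hn0 h
  have hς0 : (fun h : H => σ h) ≠ 0 := by
    intro h0
    apply irr_ne_zero hβ
    rw [← havg, ← hΦ, h0, map_zero]
  obtain ⟨ς₁, hς₁, hne⟩ := exists_constituent hς hς0
  have hγ := char_sub_irr hς hς₁ hne
  have hsum : Φ ς₁ + Φ ((fun h : H => σ h) - ς₁) = β := by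
    rw [← map_add, add_sub_cancel, hΦ, havg]
  have h1 := eq_zero_of_add_irr (hΦchar _ (irr_char hς₁)) (hΦchar _ hγ) (by rw [hsum]; exact hβ)
    (key ς₁ _ (irr_char hς₁) hγ (add_sub_cancel _ _) (irr_ne_zero hς₁))
  have h2 : (fun h : H => σ h) - ς₁ = 0 := by
    by_contra hcon
    exact key _ ς₁ hγ (irr_char hς₁) (sub_add_cancel _ _) hcon h1
  rw [sub_eq_zero.1 h2]
  exact hς₁

/-- homogeneity of the restriction of `σ` to `R` -/
theorem homog_of_prim (K H R : Subgroup G) [K.Normal] [Fintype K] [Fintype H] (hKHR : K ⊓ H ≤ R)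
    (hRH : R ≤ H) (hRn : ∀ h ∈ H, ∀ x ∈ R, h * x * h⁻¹ ∈ R) {σ β : G → ℂ}
    (hς : IsIrrCharacter H (fun h : H => σ h)) {ϑ : H → ℂ} (hϑ : IsCharacter H ϑ)
    (havg : avg K (indFun H (ϑ * fun h : H => σ h)) = β)
    (hprim : ∀ W : Subgroup G, K ⊔ R ≤ W → W ≠ ⊤ → ∀ ν : W → ℂ, IsCharacter W ν →
      indFun W ν ≠ β) :
    ∃ (ω₁ : R → ℂ) (c : ℕ), IsIrrCharacter R ω₁ ∧ (fun r : R => σ r) = (c : ℂ) • ω₁ := by
  classical
  have hn : (R.subgroupOf H).Normal :=
    ⟨fun x hx h => Subgroup.mem_subgroupOf.2 (hRn h h.2 x (Subgroup.mem_subgroupOf.1 hx))⟩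
  rcases homog_or_induced (R.subgroupOf H) hς with ⟨ω₁, c, hω₁, hc⟩ | ⟨T, ψ, hRT, hT, hψ, hind⟩
  · refine ⟨ω₁ ∘ (Subgroup.subgroupOfEquivOfLe hRH).symm, c, irr_comp_equiv _ hω₁, ?_⟩
    funext r
    exact congrFun hc ((Subgroup.subgroupOfEquivOfLe hRH).symm r)
  · exfalso
    have hμ : IsCharacter T (ψ * fun t : T => ϑ t) :=
      Helper74.IsCharacter.mul (irr_char hψ) (char_restrict hϑ T)
    have h1 : indFun T (ψ * fun t : T => ϑ t) = ϑ * fun h : H => σ h := by
      rw [indFun_mul_restrict T ψ (char_cf hϑ), hind, mul_comm]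
    obtain ⟨ν, hν, hνind⟩ := avg_ind_induced K T hμ
    apply hprim (K ⊔ T.map H.subtype) ?_ ?_ ν hν (by rw [hνind, h1, havg])
    · apply sup_le_sup_left
      intro x hx
      exact ⟨⟨x, hRH hx⟩, hRT (Subgroup.mem_subgroupOf.2 hx), rfl⟩
    · intro htop
      apply hT
      rw [eq_top_iff]
      intro h _
      have h2 : (h : G) ∈ K ⊔ T.map H.subtype := by rw [htop]; exact Subgroup.mem_top _
      obtain ⟨k, hk, t, ht, hkt⟩ := Subgroup.mem_sup_of_normal_left.1 h2
      obtain ⟨t', ht', rfl⟩ := ht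
      have hkH : k ∈ H := by
        have : k = h * (t' : G)⁻¹ := by rw [← hkt]; simp
        rw [this]
        exact H.mul_mem h.2 (H.inv_mem t'.2)
      have h3 : (⟨k, hkH⟩ : H) ∈ T := hRT (Subgroup.mem_subgroupOf.2 (hKHR ⟨hk, hkH⟩))
      have h4 : h = ⟨k, hkH⟩ * t' := Subtype.ext hkt.symm
      rw [h4]
      exact T.mul_mem h3 ht'

/-- the degree argument: `σ` restricted to `R` is `e` times an extension of `φ` -/
theorem degree_lemma (L Lh R : Subgroup G) [hL : L.Normal] [hLh : Lh.Normal] [Fintype L]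
    (hLLh : L ≤ Lh) (hLhR : Lh ≤ R)
    {σ : G → ℂ} (hσ : IsCharacter G σ) {ω₁ : R → ℂ} (hω₁ : IsIrrCharacter R ω₁) (c : ℕ)
    (hc : (fun r : R => σ r) = (c : ℂ) • ω₁) {φ : L → ℂ} (hφ : IsIrrCharacter L φ) (e : ℕ)
    (he : e ≠ 0) (hσL : (fun l : L => σ l) = (e : ℂ) • φ) {φh : Lh → ℂ}
    (hφh : IsIrrCharacter Lh φh) (hφhL : ∀ l : L, φh ⟨l, hLLh l.2⟩ = φ l)
    (hab : ∀ x ∈ Lh, ∀ y ∈ Lh, ⁅x, y⁆ ∈ L) (hcop : (Lh.relIndex R).Coprime e) :
    c = e ∧ (fun l : L => ω₁ ⟨l, hLhR (hLLh l.2)⟩) = φ := by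
  classical
  obtain ⟨d, hd⟩ := char_one_nat (irr_char hφ)
  obtain ⟨c₁, hc₁⟩ := char_one_nat (irr_char hω₁)
  have hd0 : d ≠ 0 := by
    rintro rfl
    exact irr_one_ne_zero hφ (by rw [hd]; simp)
  have hdeg : c * c₁ = e * d := by
    have h1 : σ 1 = _ := congrFun hc 1
    have h2 : σ 1 = _ := congrFun hσL 1
    rw [Pi.smul_apply, smul_eq_mul, hc₁] at h1
    rw [Pi.smul_apply, smul_eq_mul, hd] at h2
    rw [h1] at h2
    exact_mod_cast h2
  have hc0 : c ≠ 0 := by
    rintro rfl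
    rw [zero_mul] at hdeg
    exact (Nat.mul_ne_zero he hd0) hdeg.symm
  obtain ⟨ψ, hψ, hψne⟩ := exists_constituent (char_resFun hLhR (irr_char hω₁)) (by
    intro h0
    exact irr_one_ne_zero hω₁ (congrFun h0 1))
  have hσLh : (fun x : Lh => σ x) = (c : ℂ) • resFun hLhR ω₁ := by
    funext x
    exact congrFun hc ⟨x, hLhR x.2⟩
  have hσψ : classInner (fun x : Lh => σ x) ψ ≠ 0 := by
    rw [hσLh, classInner_smul_left]
    exact mul_ne_zero (by exact_mod_cast hc0) hψne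
  have hcomm : commutator Lh ≤ L.subgroupOf Lh := by
    rw [commutator_def, Subgroup.commutator_le]
    intro x _ y _
    rw [Subgroup.mem_subgroupOf]
    exact hab x x.2 y y.2
  have hφM : IsIrrCharacter (L.subgroupOf Lh) (downFun L Lh φ) := irr_downFun hLLh hφ
  have hφhM : (fun m : L.subgroupOf Lh => φh m) = downFun L Lh φ := by
    funext m
    exact hφhL ⟨((m : Lh) : G), Subgroup.mem_subgroupOf.1 m.2⟩
  have hcon : classInner (fun m : L.subgroupOf Lh => ψ m) (fun m : L.subgroupOf Lh => φh m) ≠ 0 := by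
    obtain ⟨ζ, hζ, hζne⟩ := exists_constituent (char_restrict (irr_char hψ) (L.subgroupOf Lh)) (by
      intro h0
      exact irr_one_ne_zero hψ (congrFun h0 1))
    have h2 := inner_ne_zero_of_constituent (resLin (L.subgroupOf Lh))
      (fun γ hγ => char_restrict hγ _) (char_restrict hσ Lh) hψ hσψ (irr_char hζ) hζne
    have h3 : resLin (L.subgroupOf Lh) (fun x : Lh => σ x) = (e : ℂ) • downFun L Lh φ := by
      funext m
      exact congrFun hσL ⟨((m : Lh) : G), Subgroup.mem_subgroupOf.1 m.2⟩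
    rw [h3, classInner_smul_left] at h2
    have h4 := irr_eq_of_inner_ne_zero hφM hζ (right_ne_zero_of_mul h2)
    rw [hφhM, h4]
    exact hζne
  obtain ⟨l, -, hl⟩ := exists_linear_mul (L.subgroupOf Lh) hcomm hφh hψ hcon
  have hψ1 : ψ 1 = d := by
    rw [hl, Pi.mul_apply, ← hd, ← hφhL 1]
    have : toFn l 1 = 1 := by simp [toFn]
    rw [this, one_mul]
    rfl
  have h887 := Cfsg.Agent.S0887.result (Lh.subgroupOf R) ω₁ hω₁ (downFun Lh R ψ)
    (irr_downFun hLhR hψ) (by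
      rw [← downFun_resFun hLhR ω₁, classInner_downFun hLhR]
      exact hψne) c₁ d hc₁ hψ1
  obtain ⟨⟨f, hf⟩, h2⟩ := h887
  rw [hf, Nat.mul_div_cancel_left _ (Nat.pos_of_ne_zero hd0)] at h2
  have h3 : c * f = e := by
    rw [hf] at hdeg
    have : d * (c * f) = d * e := by rw [← hdeg.trans (mul_comm e d)]; ring
    exact Nat.eq_of_mul_eq_mul_left (Nat.pos_of_ne_zero hd0) this
  have hf1 : f = 1 := by
    have h4 : f ∣ Nat.gcd (Lh.relIndex R) e := Nat.dvd_gcd h2 ⟨c, by rw [← h3, mul_comm]⟩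
    rw [hcop.gcd_eq_one] at h4
    exact Nat.dvd_one.1 h4
  have hce : c = e := by rw [← h3, hf1, mul_one]
  refine ⟨hce, ?_⟩
  funext x
  have e1 : σ x = _ := congrFun hc ⟨x, hLhR (hLLh x.2)⟩
  have e2 : σ x = _ := congrFun hσL x
  rw [Pi.smul_apply, smul_eq_mul] at e1 e2
  rw [e1, hce] at e2
  exact mul_left_cancel₀ (by exact_mod_cast he) e2

/-- if `σ` restricted to `R` is `e` times an extension of an irreducible character of `L` and
`|K : L| = e²`, then `K` normalizes `R`. -/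
theorem normalizes_of_ramified (K L R : Subgroup G) [hK : K.Normal] [hL : L.Normal] [Fintype K]
    [Fintype L] (hLK : L ≤ K) (hLR : L ≤ R) {σ : G → ℂ} (hσ : IsIrrCharacter G σ)
    (hσK : IsIrrCharacter K (fun k : K => σ k)) {ω₁ : R → ℂ} (hω₁ : IsIrrCharacter R ω₁) (e : ℕ)
    (hc : (fun r : R => σ r) = (e : ℂ) • ω₁)
    (hω₁L : IsIrrCharacter L (fun l : L => ω₁ ⟨l, hLR l.2⟩))
    (hcard : Nat.card K = e * e * Nat.card L) :
    ∀ k ∈ K, ∀ x ∈ R, k * x * k⁻¹ ∈ R := by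
  classical
  have he : e ≠ 0 := by
    rintro rfl
    simp only [zero_mul] at hcard
    exact Nat.card_pos.ne' hcard
  have hω₁L' : IsIrrCharacter (L.subgroupOf R) (fun n : L.subgroupOf R => ω₁ n) :=
    irr_downFun hLR hω₁L
  have hσω : ∀ (x : G) (hx : x ∈ R), σ x = e * ω₁ ⟨x, hx⟩ := fun x hx => congrFun hc ⟨x, hx⟩
  have step1 : ∀ x ∈ R, classInner (fun l : L => σ (l * x)) (fun l : L => σ (l * x)) = e * e := by
    intro x hx
    have h1 := coset_norm (L.subgroupOf R) hω₁ hω₁L' ⟨x, hx⟩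
    have h2 : (fun n : L.subgroupOf R => ω₁ (n * ⟨x, hx⟩))
        = downFun L R (fun l : L => ω₁ (⟨l, hLR l.2⟩ * ⟨x, hx⟩)) := rfl
    rw [h2, classInner_downFun hLR] at h1
    have h3 : (fun l : L => σ (l * x)) = (e : ℂ) • fun l : L => ω₁ (⟨l, hLR l.2⟩ * ⟨x, hx⟩) := by
      funext l
      exact hσω _ (R.mul_mem (hLR l.2) hx)
    rw [h3, classInner_smul_left, classInner_smul_right, h1, Complex.conj_natCast, mul_one]
  have step2 : ∀ x ∈ R, ∀ k ∈ K, k ∉ L → σ (k * x) = 0 := by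
    intro x hx k hk hkL
    have h1 := (vanishes_off_iff (L.subgroupOf K) (fun k : K => σ (k * x))).2 (by
      have h2 : (fun n : L.subgroupOf K => σ (((n : K) : G) * x))
          = downFun L K (fun l : L => σ (l * x)) := rfl
      rw [coset_norm K hσ hσK x, h2, classInner_downFun hLK, step1 x hx, card_subgroupOf_of_le hLK,
        hcard]
      push_cast
      ring)
    exact h1 ⟨k, hk⟩ (fun h => hkL (Subgroup.mem_subgroupOf.1 h))
  intro k hk x hx
  obtain ⟨l, hl⟩ := exists_ne_zero_coset (L.subgroupOf R) hω₁ hω₁L' ⟨x, hx⟩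
  set l' : G := ((l : R) : G) with hl'
  have hl'L : l' ∈ L := Subgroup.mem_subgroupOf.1 l.2
  have h1 : σ (l' * x) ≠ 0 := by
    rw [hσω _ (R.mul_mem (hLR hl'L) hx)]
    exact mul_ne_zero (by exact_mod_cast he) hl
  have h2 : σ (k * (l' * x) * k⁻¹) ≠ 0 := by
    rw [irr_cf hσ]; exact h1
  have h3 : k * (l' * x) * k⁻¹ = (k * l' * (x * k⁻¹ * x⁻¹)) * x := by group
  have h4 : k * l' * (x * k⁻¹ * x⁻¹) ∈ K :=
    K.mul_mem (K.mul_mem hk (hLK hl'L)) (hK.conj_mem _ (K.inv_mem hk) x)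
  have h5 : k * l' * (x * k⁻¹ * x⁻¹) ∈ L := by
    by_contra hcon
    apply h2
    rw [h3]
    exact step2 x hx _ h4 hcon
  have h6 : k * x * k⁻¹ = (k * l'⁻¹ * k⁻¹) * ((k * l' * (x * k⁻¹ * x⁻¹)) * x) := by group
  rw [h6]
  exact R.mul_mem (hLR (hL.conj_mem _ (L.inv_mem hl'L) k)) (R.mul_mem (hLR h5) hx)

end Cfsg.Agent.Lib.Helper81
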