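import Cfsg.Agent.Lib.Helper81.FHNumber
import Cfsg.Agent.Lib.Helper97.FH.Defs

/-!
# Feit–Higman: piece NT of helper97's farm
-/

set_option autoImplicit false

namespace Cfsg.Agent.Lib.Helper81.FH

open Cfsg Cfsg.Agent.Lib.Helper97.FH

theorem Xi_eq (u v : ℕ) (c : ℝ) :
    Xi u v (2 * c) = ((u : ℝ) + v + 2 * (√((u : ℝ) * v) * c)) *
      ((u : ℝ) * v + 1 - 2 * (√((u : ℝ) * v) * c)) := by
  have h : √((u : ℝ) * v) ^ 2 = (u : ℝ) * v := Real.sq_sqrt (by positivity)
  unfold Xi
  set x := √((u : ℝ) * v)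
  linear_combination (4 * c ^ 2) * h

theorem nt (A β m u v : ℕ) (hA : 0 < A) (hβ : 0 < β) (hm : 2 ≤ m) (hu : 2 ≤ u) (hv : 2 ≤ v)
    (hodd : Odd m → u = v)
    (H : ∀ j : ℕ, ¬ m ∣ 2 * j →
      ∃ d : ℕ, (A : ℝ) * u * v * (4 - (2 * Real.cos (2 * Real.pi * j / m)) ^ 2) =
        d * β * m * Xi u v (2 * Real.cos (2 * Real.pi * j / m))) :
    m = 2 ∨ m = 3 ∨ m = 4 ∨ m = 6 ∨ m = 8 := by
  have hA' : (0 : ℝ) < A := by exact_mod_cast hA
  have hu' : (2 : ℝ) ≤ u := by exact_mod_cast hu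
  have hv' : (2 : ℝ) ≤ v := by exact_mod_cast hv
  have hxx : √((u : ℝ) * v) ^ 2 = (u : ℝ) * v := Real.sq_sqrt (by positivity)
  -- the general rationality statement
  have key : ∀ j : ℕ, ¬ m ∣ 2 * j → ∀ c : ℝ, c = Real.cos (2 * Real.pi * j / m) →
      0 < ((u : ℝ) + v + 2 * (√((u : ℝ) * v) * c)) * ((u : ℝ) * v + 1 - 2 * (√((u : ℝ) * v) * c)) →
      ∃ r : ℚ, (r : ℝ) = ((u : ℝ) * v - (√((u : ℝ) * v) * c) ^ 2) /
        (((u : ℝ) + v + 2 * (√((u : ℝ) * v) * c)) * ((u : ℝ) * v + 1 - 2 * (√((u : ℝ) * v) * c))) := by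
    intro j hj c hc hpos
    obtain ⟨d, hd⟩ := H j hj
    rw [← hc, Xi_eq] at hd
    refine ⟨(d * β * m : ℚ) / (4 * A), ?_⟩
    push_cast
    rw [eq_div_iff hpos.ne', div_mul_eq_mul_div, ← hd, mul_pow (√((u : ℝ) * v)) c, hxx]
    field_simp
    ring
  rcases Nat.even_or_odd' m with ⟨d, hd | hd⟩
  · -- even
    have hd0 : 0 < d := by omega
    have hd0' : (0 : ℝ) < d := by exact_mod_cast hd0
    have := even_case u v d hu hv (by
      intro j hj0 hjd
      have hang : 2 * Real.pi * j / m = Real.pi * j / d := by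
        rw [hd]; push_cast; field_simp
      have hnd : ¬ m ∣ 2 * j := by
        rw [hd]
        intro hdvd
        have := Nat.dvd_of_mul_dvd_mul_left (by norm_num) hdvd
        exact absurd (Nat.le_of_dvd hj0 this) (by omega)
      refine key j hnd _ (by rw [hang]) ?_
      set c := Real.cos (Real.pi * j / d)
      set x := √((u : ℝ) * v)
      have hx0 : 0 ≤ x := Real.sqrt_nonneg _
      have hj0' : (0 : ℝ) < j := by exact_mod_cast hj0
      have hjd' : (j : ℝ) < d := by exact_mod_cast hjd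
      have hang0 : 0 < Real.pi * j / d := by positivity
      have hangpi : Real.pi * j / d < Real.pi := by
        rw [div_lt_iff₀ hd0']
        exact mul_lt_mul_of_pos_left hjd' Real.pi_pos
      have hc1 : c < 1 := by
        have := Real.cos_lt_cos_of_nonneg_of_le_pi (le_refl 0) hangpi.le hang0
        simpa using this
      have hc2 : -1 < c := by
        have := Real.cos_lt_cos_of_nonneg_of_le_pi hang0.le (le_refl Real.pi) hangpi
        simpa using this
      have hxpos : 0 < x := by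
        apply Real.sqrt_pos.2; positivity
      have hst : 2 * x ≤ (u : ℝ) + v := by
        by_contra hcon
        rw [not_le] at hcon
        nlinarith [sq_nonneg ((u : ℝ) - v)]
      have h1 : 0 < (u : ℝ) + v + 2 * (x * c) := by nlinarith
      have h2 : 0 < (u : ℝ) * v + 1 - 2 * (x * c) := by nlinarith [sq_nonneg (x - 1)]
      exact mul_pos h1 h2)
    omega
  · -- odd
    have hd1 : 1 ≤ d := by omega
    have huv : u = v := hodd ⟨d, hd⟩
    subst huv
    have hsq : √((u : ℝ) * u) = u := by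
      rw [← sq, Real.sqrt_sq (by positivity)]
    have hd' : (1 : ℝ) ≤ d := by exact_mod_cast hd1
    have hang : 2 * Real.pi * ((1 : ℕ) : ℝ) / m = 2 * Real.pi / (2 * d + 1) := by
      rw [hd]; push_cast; ring
    have hnd : ¬ m ∣ 2 * 1 := by
      intro h
      have := Nat.le_of_dvd (by norm_num) h
      omega
    set c := Real.cos (2 * Real.pi / (2 * d + 1)) with hc
    have hpos : 0 < 2 * Real.pi / (2 * (d : ℝ) + 1) := by positivity
    have hlt : 2 * Real.pi / (2 * (d : ℝ) + 1) < Real.pi := by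
      rw [div_lt_iff₀ (by positivity)]
      nlinarith [Real.pi_pos]
    have hc1 : c < 1 := by
      have := Real.cos_lt_cos_of_nonneg_of_le_pi (le_refl 0) hlt.le hpos
      simpa [hc] using this
    have hc2 : -1 < c := by
      have := Real.cos_lt_cos_of_nonneg_of_le_pi hpos.le (le_refl Real.pi) hlt
      simpa [hc] using this
    have h1 : 0 < (u : ℝ) + u + 2 * (u * c) := by nlinarith
    have h2 : 0 < (u : ℝ) * u + 1 - 2 * (u * c) := by nlinarith [sq_nonneg ((u : ℝ) - 1)]
    obtain ⟨r, hr⟩ := key 1 hnd c (by rw [hang]) (by rw [hsq]; exact mul_pos h1 h2)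
    rw [hsq] at hr
    have hr0 : (r : ℝ) ≠ 0 := by
      rw [hr]
      apply div_ne_zero _ (mul_pos h1 h2).ne'
      have : 0 < (u : ℝ) * u - (u * c) ^ 2 := by
        have : (u : ℝ) * u - (u * c) ^ 2 = (u : ℝ) ^ 2 * ((1 - c) * (1 + c)) := by ring
        rw [this]
        have a1 : 0 < 1 - c := by linarith
        have a2 : 0 < 1 + c := by linarith
        positivity
      exact this.ne'
    have := odd_case u d hu hd1 ⟨(u : ℚ) / (2 * r), by
      push_cast
      rw [hr, ← hc]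
      have a1 : (1 - c) ≠ 0 := by linarith
      have a2 : (1 + c) ≠ 0 := by linarith
      have a3 : (u : ℝ) ≠ 0 := by positivity
      have e1 : (u : ℝ) * u - (u * c) ^ 2 = (u : ℝ) ^ 2 * ((1 - c) * (1 + c)) := by ring
      have e2 : (u : ℝ) + u + 2 * (u * c) = 2 * u * (1 + c) := by ring
      have e3 : (u : ℝ) * u + 1 - 2 * (u * c) = (u : ℝ) ^ 2 + 1 - 2 * u * c := by ring
      rw [e1, e2, e3]
      have a4 : (u : ℝ) ^ 2 + 1 - 2 * u * c ≠ 0 := by rw [← e3]; exact h2.ne'
      field_simp⟩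
    omega

end Cfsg.Agent.Lib.Helper81.FH
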