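import Mathlib

/-!
# Feit–Higman: the number theory

`kappa` rational for the relevant angles forces `m ∈ {2,3,4,6,8}`.
-/

set_option autoImplicit false

namespace Cfsg.Agent.Lib.Helper81.FH

open Real

/-- odd case: `m = 2 d + 1`. -/
theorem odd_case (s d : ℕ) (hs : 2 ≤ s) (hd : 1 ≤ d)
    (h : ∃ r : ℚ, (r : ℝ) = ((s : ℝ) ^ 2 + 1 - 2 * s * cos (2 * π / (2 * d + 1))) /
      (1 - cos (2 * π / (2 * d + 1)))) : d = 1 := by
  obtain ⟨ρ, hρ⟩ := h
  set c := cos (2 * π / (2 * d + 1)) with hc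
  have hs' : (2 : ℝ) ≤ s := by exact_mod_cast hs
  have hd' : (1 : ℝ) ≤ d := by exact_mod_cast hd
  have hang : 2 * π / (2 * d + 1) = ((2 / (2 * d + 1) : ℚ) : ℝ) * π := by
    push_cast; ring
  have hpos : 0 < 2 * π / (2 * (d : ℝ) + 1) := by positivity
  have hlt : 2 * π / (2 * (d : ℝ) + 1) < π := by
    rw [div_lt_iff₀ (by positivity)]
    nlinarith [pi_pos]
  have hc1 : c < 1 := by
    have : cos (2 * π / (2 * (d : ℝ) + 1)) < cos 0 :=
      cos_lt_cos_of_nonneg_of_le_pi (le_refl 0) hlt.le hpos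
    simpa [hc] using this
  have h1c : (1 - c) ≠ 0 := by linarith
  have e1 : (ρ : ℝ) * (1 - c) = (s : ℝ) ^ 2 + 1 - 2 * s * c := by
    rw [hρ]; field_simp
  have hne : (2 * (s : ℝ) - ρ) ≠ 0 := by
    intro h0
    have : (ρ : ℝ) = 2 * s := by linarith
    rw [this] at e1
    nlinarith
  have hcq : c = (((s : ℚ) ^ 2 + 1 - ρ) / (2 * s - ρ) : ℚ) := by
    push_cast
    rw [eq_div_iff hne]
    linarith
  have hq : ∃ q : ℚ, cos (((2 / (2 * d + 1) : ℚ) : ℝ) * π) = q := by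
    rw [← hang]; exact ⟨_, hcq⟩
  have hb : (2 / (2 * d + 1) : ℚ) ∈ Set.Icc (0 : ℚ) 1 := by
    constructor
    · positivity
    · rw [div_le_one (by positivity)]
      have : (1 : ℚ) ≤ d := by exact_mod_cast hd
      linarith
  have := niven_angle_div_pi_eq hq hb
  have hdq : (0 : ℚ) < 2 * d + 1 := by positivity
  simp only [Set.mem_insert_iff, Set.mem_singleton_iff] at this
  rcases this with h | h | h | h | h
  · rw [div_eq_iff hdq.ne'] at h; norm_num at h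
  · rw [div_eq_iff hdq.ne'] at h
    have h2 : (6 : ℚ) = 2 * d + 1 := by linarith
    have h3 : (6 : ℕ) = 2 * d + 1 := by exact_mod_cast h2
    omega
  · rw [div_eq_iff hdq.ne'] at h
    have h2 : (4 : ℚ) = 2 * d + 1 := by linarith
    have h3 : (4 : ℕ) = 2 * d + 1 := by exact_mod_cast h2
    omega
  · rw [div_eq_iff hdq.ne'] at h
    have h2 : (3 : ℚ) = 2 * d + 1 := by linarith
    have h3 : (3 : ℕ) = 2 * d + 1 := by exact_mod_cast h2
    omega
  · rw [div_eq_iff hdq.ne'] at h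
    have h2 : (2 : ℚ) = 2 * d + 1 := by linarith
    have h3 : (2 : ℕ) = 2 * d + 1 := by exact_mod_cast h2
    omega


/-- the quadratic satisfied by `y`. -/
theorem quad_of_ratio {s t x y r : ℝ} (hs : 2 ≤ s) (ht : 2 ≤ t) (hx : 0 < x) (hxx : x ^ 2 = s * t)
    (hy1 : -x < y) (hy2 : y < x)
    (hr : r = (s * t - y ^ 2) / ((s + t + 2 * y) * (s * t + 1 - 2 * y))) :
    0 < r ∧ 4 * r < 1 ∧
      (1 - 4 * r) * y ^ 2 + 2 * r * (s - 1) * (t - 1) * y + (r * (s + t) * (s * t + 1) - s * t) = 0 := by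
  have hst : 2 * x ≤ s + t := by
    by_contra hcon
    rw [not_le] at hcon
    nlinarith [sq_nonneg (s - t)]
  have h1 : 0 < s + t + 2 * y := by linarith
  have h2 : 0 < s * t + 1 - 2 * y := by nlinarith [sq_nonneg (x - 1)]
  have h3 : 0 < s * t - y ^ 2 := by nlinarith
  have hN : 0 < (s + t + 2 * y) * (s * t + 1 - 2 * y) := mul_pos h1 h2
  have e : r * ((s + t + 2 * y) * (s * t + 1 - 2 * y)) = s * t - y ^ 2 := by
    rw [hr]; exact div_mul_cancel₀ _ hN.ne'
  refine ⟨by rw [hr]; positivity, ?_, by nlinarith [e]⟩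
  have key : 4 * (s * t - y ^ 2) < (s + t + 2 * y) * (s * t + 1 - 2 * y) := by
    have k1 : 0 ≤ (s + t - 2 * x) * (x + 1) ^ 2 := mul_nonneg (by linarith) (by positivity)
    have k2 : 0 < 2 * ((s - 1) * (t - 1)) * (y + x) := by
      have : 0 < (s - 1) * (t - 1) := by nlinarith
      have h5 : 0 < y + x := by linarith
      positivity
    have k3 : (s + t - 2 * x) * (x + 1) ^ 2 =
        (s + t) * (s * t + 1) - 4 * (s * t) - 2 * x * ((s - 1) * (t - 1)) := by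
      have : x ^ 3 = s * t * x := by rw [pow_succ, hxx]
      ring_nf
      ring_nf at this hxx
      rw [this, hxx]; ring
    nlinarith [k1, k2, k3]
  rw [hr, ← mul_div_assoc, div_lt_one hN]
  exact key

/-- `y` is rational when both ratios (for `y` and `-y`) are. -/
theorem rat_of_ratio {s t : ℕ} {x y : ℝ} (hs : 2 ≤ s) (ht : 2 ≤ t) (hx : 0 < x)
    (hxx : x ^ 2 = (s : ℝ) * t) (hy1 : -x < y) (hy2 : y < x) (r r' : ℚ)
    (hr : (r : ℝ) = ((s : ℝ) * t - y ^ 2) / (((s : ℝ) + t + 2 * y) * ((s : ℝ) * t + 1 - 2 * y)))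
    (hr' : (r' : ℝ) = ((s : ℝ) * t - (-y) ^ 2) /
      (((s : ℝ) + t + 2 * (-y)) * ((s : ℝ) * t + 1 - 2 * (-y)))) :
    ∃ q : ℚ, y = q := by
  have hs' : (2 : ℝ) ≤ s := by exact_mod_cast hs
  have ht' : (2 : ℝ) ≤ t := by exact_mod_cast ht
  obtain ⟨a1, a2, a3⟩ := quad_of_ratio hs' ht' hx hxx hy1 hy2 hr
  obtain ⟨b1, b2, b3⟩ := quad_of_ratio hs' ht' hx hxx (by linarith) (by linarith) hr'
  have hst : 0 < ((s : ℝ) - 1) * (t - 1) := by nlinarith
  set A : ℝ := 2 * r * ((s : ℝ) - 1) * (t - 1) * (1 - 4 * r') +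
    2 * r' * ((s : ℝ) - 1) * (t - 1) * (1 - 4 * r) with hA
  have hApos : 0 < A := by
    have u1 : 0 < (r : ℝ) * (((s : ℝ) - 1) * (t - 1)) * (1 - 4 * r') := by
      have : (0 : ℝ) < 1 - 4 * r' := by linarith
      positivity
    have u2 : 0 < (r' : ℝ) * (((s : ℝ) - 1) * (t - 1)) * (1 - 4 * r) := by
      have : (0 : ℝ) < 1 - 4 * r := by linarith
      positivity
    rw [hA]; nlinarith
  have hlin : A * y = (1 - 4 * r) * (r' * ((s : ℝ) + t) * (s * t + 1) - s * t) -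
      (1 - 4 * r') * (r * ((s : ℝ) + t) * (s * t + 1) - s * t) := by
    rw [hA]
    linear_combination (1 - 4 * (r' : ℝ)) * a3 - (1 - 4 * (r : ℝ)) * b3
  refine ⟨((1 - 4 * r) * (r' * ((s : ℚ) + t) * (s * t + 1) - s * t) -
      (1 - 4 * r') * (r * ((s : ℚ) + t) * (s * t + 1) - s * t)) /
      (2 * r * ((s : ℚ) - 1) * (t - 1) * (1 - 4 * r') +
    2 * r' * ((s : ℚ) - 1) * (t - 1) * (1 - 4 * r)), ?_⟩
  push_cast
  rw [eq_div_iff (by rw [← hA]; exact hApos.ne'), ← hA, mul_comm]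
  exact hlin

/-- even case: `m = 2 d`. -/
theorem even_case (s t d : ℕ) (hs : 2 ≤ s) (ht : 2 ≤ t)
    (h : ∀ j : ℕ, 0 < j → j < d → ∃ r : ℚ, (r : ℝ) =
      ((s : ℝ) * t - (√((s : ℝ) * t) * cos (π * j / d)) ^ 2) /
      (((s : ℝ) + t + 2 * (√((s : ℝ) * t) * cos (π * j / d))) *
        ((s : ℝ) * t + 1 - 2 * (√((s : ℝ) * t) * cos (π * j / d))))) : d ≤ 4 := by
  by_contra hd
  rw [not_le] at hd
  have hd : 5 ≤ d := hd
  have hs' : (2 : ℝ) ≤ s := by exact_mod_cast hs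
  have ht' : (2 : ℝ) ≤ t := by exact_mod_cast ht
  have hd' : (5 : ℝ) ≤ d := by exact_mod_cast hd
  set x : ℝ := √((s : ℝ) * t) with hxdef
  have hst0 : (0 : ℝ) < (s : ℝ) * t := by positivity
  have hx : 0 < x := Real.sqrt_pos.2 hst0
  have hxx : x ^ 2 = (s : ℝ) * t := Real.sq_sqrt hst0.le
  -- all y_j rational
  have hrat : ∀ j : ℕ, 0 < j → j < d → ∃ q : ℚ, x * cos (π * j / d) = q := by
    intro j hj0 hjd
    obtain ⟨r, hr⟩ := h j hj0 hjd
    obtain ⟨r', hr'⟩ := h (d - j) (by omega) (by omega)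
    have hj0' : (0 : ℝ) < j := by exact_mod_cast hj0
    have hjd' : (j : ℝ) < d := by exact_mod_cast hjd
    have hang0 : 0 < π * j / d := by positivity
    have hangpi : π * j / d < π := by
      rw [div_lt_iff₀ (by linarith)]
      exact mul_lt_mul_of_pos_left hjd' pi_pos
    have hneg : cos (π * ((d - j : ℕ) : ℝ) / d) = - cos (π * j / d) := by
      rw [Nat.cast_sub hjd.le, ← cos_pi_sub]
      congr 1
      field_simp
    rw [hneg] at hr'
    have hc1 : cos (π * j / d) < 1 := by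
      have := cos_lt_cos_of_nonneg_of_le_pi (le_refl 0) hangpi.le hang0
      simpa using this
    have hc2 : -1 < cos (π * j / d) := by
      have := cos_lt_cos_of_nonneg_of_le_pi hang0.le (le_refl π) hangpi
      simpa using this
    refine rat_of_ratio hs ht hx hxx (by nlinarith) (by nlinarith) r r' hr ?_
    rw [hr']; ring_nf
  obtain ⟨q1, hq1⟩ := hrat 1 (by norm_num) (by omega)
  obtain ⟨q2, hq2⟩ := hrat 2 (by norm_num) (by omega)
  set θ : ℝ := π / d with hθ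
  have e1 : π * ((1 : ℕ) : ℝ) / d = θ := by rw [hθ]; simp
  have e2 : π * ((2 : ℕ) : ℝ) / d = 2 * θ := by rw [hθ]; push_cast; ring
  rw [e1] at hq1
  rw [e2] at hq2
  have hcos2 : cos (2 * θ) = 2 * (q1 : ℝ) ^ 2 / ((s : ℝ) * t) - 1 := by
    rw [cos_two_mul, ← hq1, mul_pow, hxx]
    field_simp
  have h2θ0 : 0 < 2 * θ := by rw [hθ]; positivity
  have h2θ : 2 * θ < π / 2 := by
    rw [hθ, ← mul_div_assoc, div_lt_iff₀ (by linarith)]
    nlinarith [pi_pos]
  have hcos2pos : 0 < cos (2 * θ) := cos_pos_of_mem_Ioo ⟨by linarith, h2θ⟩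
  have hxq : x = q2 / (2 * (q1 : ℝ) ^ 2 / ((s : ℝ) * t) - 1) := by
    rw [← hcos2, ← hq2]; field_simp
  have hcosq : ∃ q : ℚ, cos (((1 / d : ℚ) : ℝ) * π) = q := by
    refine ⟨q1 / (q2 / (2 * q1 ^ 2 / ((s : ℚ) * t) - 1)), ?_⟩
    have : ((1 / d : ℚ) : ℝ) * π = θ := by rw [hθ]; push_cast; ring
    rw [this]
    push_cast
    rw [← hxq, ← hq1]; field_simp
  have hb : (1 / d : ℚ) ∈ Set.Icc (0 : ℚ) 1 := by
    constructor
    · positivity
    · rw [div_le_one (by have : (5 : ℚ) ≤ d := by exact_mod_cast hd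
                         linarith)]
      have : (5 : ℚ) ≤ d := by exact_mod_cast hd
      linarith
  have hdq : (5 : ℚ) ≤ d := by exact_mod_cast hd
  have hdq0 : (d : ℚ) ≠ 0 := by linarith
  have := niven_angle_div_pi_eq hcosq hb
  simp only [Set.mem_insert_iff, Set.mem_singleton_iff] at this
  rcases this with h | h | h | h | h <;> rw [div_eq_iff hdq0] at h <;> linarith

end Cfsg.Agent.Lib.Helper81.FH
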