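import Mathlib
import Cfsg.Agent.Lib.Helper53.HH.Defs
import Cfsg.Agent.Lib.Helper73.HHAbel2
import Cfsg.Agent.Lib.Helper81.HHR6
import Cfsg.Agent.S4282

/-! # Hall–Higman Theorem B farm (helper53): piece R7 (glue to S4282) -/

set_option autoImplicit false

namespace Cfsg.Agent.Lib.Helper81.HH

open Module Cfsg.Agent.Lib.Helper53.HH
open scoped Pointwise

variable {K : Type*} [Field K] {U : Type*} [AddCommGroup U] [Module K U]

/-- Schur: an element of `𝒬` central in `𝒬` is a scalar. -/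
theorem schur_scalar [IsAlgClosed K] [FiniteDimensional K U] (𝒬 : Subgroup (U ≃ₗ[K] U))
    (h : Irr 𝒬 ⊤) (a : U ≃ₗ[K] U) (hcen : ∀ g ∈ 𝒬, a * g = g * a) :
    ∃ μ : K, ∀ u, a u = μ • u := by
  have hnt : Nontrivial U := by
    rw [← Submodule.nontrivial_iff K]
    exact ⟨⟨⊤, ⊥, h.1⟩⟩
  obtain ⟨μ, hμ⟩ := Module.End.exists_eigenvalue (a.toLinearMap : Module.End K U)
  refine ⟨μ, ?_⟩
  have h1 := h.2.2 (Module.End.eigenspace (a.toLinearMap : Module.End K U) μ) le_top (by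
    intro g hg u hu
    rw [Module.End.mem_eigenspace_iff] at hu ⊢
    show (a * g) u = μ • g u
    rw [hcen g hg]
    show g (a u) = μ • g u
    have : a u = μ • u := hu
    rw [this, map_smul])
  rcases h1 with h1 | h1
  · exact absurd h1 hμ
  · intro u
    have : u ∈ Module.End.eigenspace (a.toLinearMap : Module.End K U) μ := by rw [h1]; trivial
    exact Module.End.mem_eigenspace_iff.1 this

theorem core_lin [IsAlgClosed K] [FiniteDimensional K U] (p q : ℕ) [Fact p.Prime] [Fact q.Prime]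
    (hpq : p ≠ q) [CharP K p] (𝒬 : Subgroup (U ≃ₗ[K] U)) [Finite 𝒬] (hq : IsPGroup q 𝒬)
    (h : Irr 𝒬 ⊤) (X : U ≃ₗ[K] U) (hnorm : ∀ g ∈ 𝒬, X * g * X⁻¹ ∈ 𝒬) (n : ℕ) (hn : 1 ≤ n)
    (hX : X ^ p ^ n = 1) (hnc : ∃ g ∈ 𝒬, X ^ p ^ (n - 1) * g ≠ g * X ^ p ^ (n - 1))
    (hsemi : ∀ d ∈ 𝒬, X ^ p ^ (n - 1) * d = d * X ^ p ^ (n - 1) → ∀ g ∈ 𝒬, d * g = g * d)
    (r : ℕ) (hr : (X.toLinearMap - 1 : Module.End K U) ^ r = 0) :
    p ^ n ≤ r ∨ ∃ m : ℕ, 1 ≤ m ∧ p ^ n - 1 = q ^ m ∧ ¬ IsMulCommutative 𝒬 ∧ p ^ n - 1 ≤ r := by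
  classical
  have hp : p.Prime := Fact.out
  obtain ⟨m', rfl⟩ : ∃ m', n = m' + 1 := ⟨n - 1, by omega⟩
  simp only [Nat.add_sub_cancel] at hnc hsemi
  have hnt : Nontrivial U := by
    rw [← Submodule.nontrivial_iff K]
    exact ⟨⟨⊤, ⊥, h.1⟩⟩
  set Y := X ^ p ^ m' with hYdef
  have hY1 : Y ≠ 1 := by
    intro h1
    obtain ⟨g, _, hg⟩ := hnc
    apply hg
    rw [h1]; simp
  have hord : orderOf X = p ^ (m' + 1) := orderOf_eq_prime_pow hY1 hX
  set Z := Subgroup.zpowers X with hZ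
  have hXN : X ∈ Subgroup.normalizer (𝒬 : Set (U ≃ₗ[K] U)) := mem_normalizer_of_conj_mem 𝒬 X hnorm
  have hZN : Z ≤ Subgroup.normalizer (𝒬 : Set (U ≃ₗ[K] U)) := Subgroup.zpowers_le.2 hXN
  set Gs : Subgroup (U ≃ₗ[K] U) := 𝒬 ⊔ Z with hGs
  have hcoe : (Gs : Set (U ≃ₗ[K] U)) = (𝒬 : Set (U ≃ₗ[K] U)) * (Z : Set (U ≃ₗ[K] U)) :=
    Subgroup.coe_mul_of_right_le_normalizer_left 𝒬 Z hZN
  have hZfin : Finite Z := by
    apply Nat.finite_of_card_ne_zero
    rw [Nat.card_zpowers, hord]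
    exact (pow_pos hp.pos _).ne'
  have hGfin : Finite Gs := by
    have : (Gs : Set (U ≃ₗ[K] U)).Finite := by
      rw [hcoe]
      exact Set.Finite.mul (Set.toFinite _) (Set.toFinite _)
    exact this.to_subtype
  have hQG : 𝒬 ≤ Gs := le_sup_left
  have hGN : Gs ≤ Subgroup.normalizer (𝒬 : Set (U ≃ₗ[K] U)) := sup_le Subgroup.le_normalizer hZN
  have hQnormal : (𝒬.subgroupOf Gs).Normal := Subgroup.normal_subgroupOf_of_le_normalizer hGN
  have hQp : IsPGroup q (𝒬.subgroupOf Gs) := hq.comap_subtype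
  have hXG : X ∈ Gs := (le_sup_right : Z ≤ Gs) (Subgroup.mem_zpowers X)
  set x : Gs := ⟨X, hXG⟩ with hx
  have hordx : orderOf x = p ^ (m' + 1) := by rw [hx, Subgroup.orderOf_mk, hord]
  have hcardx : Nat.card (Subgroup.zpowers x) = p ^ (m' + 1) := by rw [Nat.card_zpowers, hordx]
  have hxp : IsPGroup p (Subgroup.zpowers x) := IsPGroup.of_card hcardx
  have hdecomp : ∀ g : Gs, ∃ a : Gs, a ∈ 𝒬.subgroupOf Gs ∧ ∃ z ∈ Subgroup.zpowers x, g = a * z := by
    intro g
    have hg : (g : U ≃ₗ[K] U) ∈ (𝒬 : Set (U ≃ₗ[K] U)) * (Z : Set (U ≃ₗ[K] U)) := hcoe ▸ g.2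
    obtain ⟨a, ha, z, hz, haz⟩ := hg
    obtain ⟨k, hk⟩ := Subgroup.mem_zpowers_iff.1 hz
    refine ⟨⟨a, hQG ha⟩, Subgroup.mem_subgroupOf.2 ha, x ^ k, Subgroup.zpow_mem_zpowers x k, ?_⟩
    apply Subtype.ext
    simp only [Subgroup.coe_mul, Subgroup.coe_zpow, hx]
    rw [hk]
    exact haz.symm
  have hgen : 𝒬.subgroupOf Gs ⊔ Subgroup.zpowers x = ⊤ := by
    rw [eq_top_iff]
    intro g _
    obtain ⟨a, ha, z, hz, rfl⟩ := hdecomp g
    exact Subgroup.mul_mem_sup ha hz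
  have hxpow : x ^ p ^ (m' + 1) = 1 := by rw [← hordx]; exact pow_orderOf_eq_one x
  have hC : ∀ y ∈ Subgroup.zpowers x, y ≠ 1 → Subgroup.centralizer ({y} : Set Gs) =
      Subgroup.zpowers x ⊔ Subgroup.center Gs := by
    intro y hy hy1
    apply le_antisymm
    · intro g hg
      rw [Subgroup.mem_centralizer_singleton_iff] at hg
      obtain ⟨a, ha, z, hz, rfl⟩ := hdecomp g
      -- y is a power of x
      have hfo : IsOfFinOrder x := isOfFinOrder_iff_pow_eq_one.2 ⟨_, pow_pos hp.pos _, hxpow⟩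
      obtain ⟨i, hi⟩ := (hfo.mem_powers_iff_mem_zpowers.2 hy)
      have hi : x ^ i = y := hi
      have hi' : x ^ (i % p ^ (m' + 1)) = y := by rw [← pow_eq_pow_mod i hxpow, hi]
      have hi0 : 0 < i % p ^ (m' + 1) := by
        rcases Nat.eq_zero_or_pos (i % p ^ (m' + 1)) with h0 | h0
        · rw [h0, pow_zero] at hi'
          exact absurd hi'.symm hy1
        · exact h0
      obtain ⟨k, hk⟩ := Cfsg.Agent.Lib.Helper73.HHAbel.pow_lemma p m' x hxpow _ hi0
        (Nat.mod_lt _ (pow_pos hp.pos _))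
      rw [hi'] at hk
      -- z commutes with y
      have hzy : z * y = y * z := by
        obtain ⟨k1, rfl⟩ := Subgroup.mem_zpowers_iff.1 hz
        obtain ⟨k2, rfl⟩ := Subgroup.mem_zpowers_iff.1 hy
        rw [← zpow_add, ← zpow_add, add_comm]
      have hay : a * y = y * a := by
        have h1 : a * z * y = y * (a * z) := hg
        have h2 : a * y * z = y * a * z := by
          calc a * y * z = a * (y * z) := by group
            _ = a * (z * y) := by rw [hzy]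
            _ = a * z * y := by group
            _ = y * (a * z) := h1
            _ = y * a * z := by group
        exact mul_right_cancel h2
      have haY : a * x ^ p ^ m' = x ^ p ^ m' * a := by
        rw [hk]
        exact ((show Commute a y from hay).pow_right k).eq
      have haY' : Y * (a : U ≃ₗ[K] U) = (a : U ≃ₗ[K] U) * Y := by
        have := congrArg Subtype.val haY
        simp only [Subgroup.coe_mul, Subgroup.coe_pow, hx] at this
        exact this.symm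
      have hacen := hsemi a (Subgroup.mem_subgroupOf.1 ha) haY'
      obtain ⟨μ, hμ⟩ := schur_scalar 𝒬 h a hacen
      have hacenter : a ∈ Subgroup.center Gs := by
        rw [Subgroup.mem_center_iff]
        intro g
        apply Subtype.ext
        ext u
        show (g : U ≃ₗ[K] U) ((a : U ≃ₗ[K] U) u) = (a : U ≃ₗ[K] U) ((g : U ≃ₗ[K] U) u)
        rw [hμ, hμ, map_smul]
      rw [sup_comm]
      exact Subgroup.mul_mem_sup hacenter hz
    · apply sup_le
      · intro z hz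
        rw [Subgroup.mem_centralizer_singleton_iff]
        obtain ⟨k1, rfl⟩ := Subgroup.mem_zpowers_iff.1 hz
        obtain ⟨k2, rfl⟩ := Subgroup.mem_zpowers_iff.1 hy
        rw [← zpow_add, ← zpow_add, add_comm]
      · intro c hc
        rw [Subgroup.mem_centralizer_singleton_iff]
        exact ((Subgroup.mem_center_iff.1 hc) y).symm
  let ρ : Representation K Gs U :=
    (LinearEquiv.automorphismGroup.toLinearMapMonoidHom).comp Gs.subtype
  have hρ : ∀ g : Gs, ρ g = (g : U ≃ₗ[K] U).toLinearMap := fun g => rfl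
  have hfaith : Function.Injective ρ := by
    intro a b hab
    rw [hρ, hρ] at hab
    exact Subtype.ext (LinearEquiv.toLinearMap_injective hab)
  have hirr : ∀ W : Submodule K U, (∀ g ∈ 𝒬.subgroupOf Gs, Submodule.map (ρ g) W ≤ W) →
      W = ⊥ ∨ W = ⊤ := by
    intro W hW
    apply h.2.2 W le_top
    intro g hg u hu
    exact hW ⟨g, hQG hg⟩ (Subgroup.mem_subgroupOf.2 hg) ⟨u, hu, rfl⟩
  have hex : ∃ s, (ρ x - 1) ^ s = 0 := ⟨r, hr⟩
  have hs := Nat.find_spec hex
  have hsmin : ∀ k < Nat.find hex, (ρ x - 1) ^ k ≠ 0 := fun k hk => Nat.find_min hex hk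
  have hsr : Nat.find hex ≤ r := Nat.find_min' hex hr
  obtain ⟨c1, c2, c3⟩ := Cfsg.Agent.S4282.result p q hpq (𝒬.subgroupOf Gs) hQp x hxp hgen hC ρ hfaith
    hirr (Nat.find hex) hs hsmin
  rw [hcardx] at c1 c2 c3
  rcases Nat.lt_or_ge (Nat.find hex) (p ^ (m' + 1)) with hlt | hge
  · right
    have hseq : Nat.find hex = p ^ (m' + 1) - 1 := by omega
    obtain ⟨⟨b, hb⟩, hnonab⟩ := c3 hseq
    refine ⟨b, ?_, hb, ?_, by omega⟩
    · rcases Nat.eq_zero_or_pos b with hb0 | hb0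
      · exfalso
        rw [hb0, pow_zero] at hb
        rw [hseq, hb, pow_one] at hs
        have hX1 : X = 1 := by
          apply LinearEquiv.toLinearMap_injective
          have : ρ x = 1 := sub_eq_zero.1 hs
          exact this
        apply hY1
        rw [hYdef, hX1, one_pow]
      · exact hb0
    · intro hcomm
      apply hnonab
      refine ⟨⟨fun a b => ?_⟩⟩
      have := hcomm.is_comm.comm (⟨a, Subgroup.mem_subgroupOf.1 a.2⟩ : 𝒬)
        ⟨b, Subgroup.mem_subgroupOf.1 b.2⟩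
      apply Subtype.ext
      apply Subtype.ext
      have h2 : ((a : Gs) : U ≃ₗ[K] U) * ((b : Gs) : U ≃ₗ[K] U) =
          ((b : Gs) : U ≃ₗ[K] U) * ((a : Gs) : U ≃ₗ[K] U) := congrArg Subtype.val this
      exact h2
  · left
    omega

end Cfsg.Agent.Lib.Helper81.HH
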