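import Mathlib

/-!
# Groups with abelian Sylow subgroups: `G' ∩ Z(G) = 1` (Taunt)
-/

set_option autoImplicit false

namespace Cfsg.Agent.Lib.Helper81

/-- all Sylow subgroups are abelian -/
def AGroup (X : Type*) [Group X] : Prop :=
  ∀ (p : ℕ) [Fact p.Prime] (P : Sylow p X), ∀ a ∈ P, ∀ b ∈ P, a * b = b * a

theorem AGroup.of_injective {X Y : Type*} [Group X] [Group Y] (f : Y →* X)
    (hf : Function.Injective f) (hX : AGroup X) : AGroup Y := by
  intro p _ P a ha b hb
  have hP : IsPGroup p (P.map f : Subgroup X) := P.2.map f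
  obtain ⟨Q, hQ⟩ := hP.exists_le_sylow
  apply hf
  rw [map_mul, map_mul]
  exact hX p Q _ (hQ ⟨a, ha, rfl⟩) _ (hQ ⟨b, hb, rfl⟩)

theorem AGroup.of_surjective {X Y : Type*} [Group X] [Group Y] [Finite X] (f : X →* Y)
    (hf : Function.Surjective f) (hX : AGroup X) : AGroup Y := by
  intro p _ Q a ha b hb
  obtain ⟨P, rfl⟩ := Sylow.mapSurjective_surjective hf p Q
  have ha' : a ∈ (P.map f : Subgroup Y) := by
    rw [← Sylow.coe_mapSurjective hf]; exact ha
  have hb' : b ∈ (P.map f : Subgroup Y) := by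
    rw [← Sylow.coe_mapSurjective hf]; exact hb
  obtain ⟨x, hx, rfl⟩ := ha'
  obtain ⟨y, hy, rfl⟩ := hb'
  rw [← map_mul, ← map_mul, hX p P x hx y hy]

/-- **Taunt's lemma** -/
theorem taunt {X : Type*} [Group X] [Finite X] (hX : AGroup X) (z : X) (h1 : z ∈ commutator X)
    (h2 : z ∈ Subgroup.center X) : z = 1 := by
  by_contra hz
  have hord : orderOf z ≠ 1 := by
    rwa [Ne, orderOf_eq_one_iff]
  obtain ⟨p, hp, hpd⟩ := Nat.exists_prime_and_dvd hord
  have : Fact p.Prime := ⟨hp⟩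
  obtain ⟨k, hk⟩ := hpd
  set w := z ^ k with hw
  have hwo : orderOf w = p := by
    have hk0 : k ≠ 0 := by
      rintro rfl
      rw [mul_zero] at hk
      exact (orderOf_pos z).ne' hk
    rw [hw, orderOf_pow_of_dvd hk0 ⟨p, by rw [hk, mul_comm]⟩, hk, Nat.mul_div_cancel _
      (Nat.pos_of_ne_zero hk0)]
  have hw1 : w ∈ commutator X := Subgroup.pow_mem _ h1 k
  have hw2 : w ∈ Subgroup.center X := Subgroup.pow_mem _ h2 k
  have hpg : IsPGroup p (Subgroup.zpowers w) := by
    apply IsPGroup.of_card (n := 1)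
    rw [Nat.card_zpowers, hwo, pow_one]
  obtain ⟨P, hP⟩ := hpg.exists_le_sylow
  have hwP : w ∈ P := hP (Subgroup.mem_zpowers w)
  let _ : CommGroup P := { (inferInstance : Group P) with
    mul_comm := fun a b => Subtype.ext (hX p P a a.2 b b.2) }
  have key : ∀ (k : ℕ) (g₀ : X), g₀⁻¹ * w ^ k * g₀ ∈ (P : Subgroup X) →
      g₀⁻¹ * w ^ k * g₀ = w ^ k := by
    intro k g₀ _
    have : w ^ k ∈ Subgroup.center X := Subgroup.pow_mem _ hw2 k
    rw [mul_assoc, Subgroup.mem_center_iff.1 this g₀ |>.symm, inv_mul_cancel_left]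
  have h3 := MonoidHom.transfer_eq_pow (MonoidHom.id (P : Subgroup X)) w key
  have h4 : MonoidHom.transfer (MonoidHom.id (P : Subgroup X)) w = 1 :=
    Abelianization.commutator_subset_ker _ hw1
  rw [h4] at h3
  have h5 : w ^ (P : Subgroup X).index = 1 := by
    have := congrArg Subtype.val h3
    exact this.symm
  have h6 : p ∣ (P : Subgroup X).index := by
    have := orderOf_dvd_of_pow_eq_one h5
    rwa [hwo] at this
  exact P.not_dvd_index h6

/-- relative form of Taunt's lemma -/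
theorem taunt_rel {X : Type*} [Group X] [Finite X] (hX : AGroup X) (K : Subgroup X) [K.Normal]
    (a : X) (ha : a ∈ commutator X) (hc : ∀ x, a * x * a⁻¹ * x⁻¹ ∈ K) : a ∈ K := by
  have hq : AGroup (X ⧸ K) := hX.of_surjective (QuotientGroup.mk' K) (QuotientGroup.mk'_surjective K)
  have h1 : (QuotientGroup.mk' K a) ∈ commutator (X ⧸ K) := by
    have := Subgroup.mem_map_of_mem (QuotientGroup.mk' K) ha
    rw [commutator_def, Subgroup.map_commutator, ← MonoidHom.range_eq_map,
      MonoidHom.range_eq_top.2 (QuotientGroup.mk'_surjective K)] at this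
    exact this
  have h2 : (QuotientGroup.mk' K a) ∈ Subgroup.center (X ⧸ K) := by
    rw [Subgroup.mem_center_iff]
    intro y
    obtain ⟨x, rfl⟩ := QuotientGroup.mk'_surjective K y
    have h3 := (QuotientGroup.eq_one_iff _).2 (hc x)
    have h4 : QuotientGroup.mk' K (a * x * a⁻¹ * x⁻¹) = 1 := h3
    rw [← map_mul, ← map_mul]
    have h5 : a * x = (a * x * a⁻¹ * x⁻¹) * (x * a) := by group
    rw [h5, map_mul _ (a * x * a⁻¹ * x⁻¹), h4, one_mul]
  have := taunt hq _ h1 h2
  exact (QuotientGroup.eq_one_iff a).1 this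

end Cfsg.Agent.Lib.Helper81
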